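import Cfsg.Agent.H827.C6Geo
import Cfsg.Agent.S5781
import Cfsg.Agent.H917.CoreLe

/-!
# Overgroups of the normaliser of `4 ∘ 2^{1+4}` in `SL₄(p)`, `p ≡ 1 mod 4`
-/

set_option autoImplicit false

namespace Cfsg.Agent.H827.CF

open Cfsg Cfsg.Geo Matrix Cfsg.Agent.H920
open scoped commutatorElement

universe u

variable {F : Type u} [Field F] [Fintype F] {R : Subgroup (GL (Fin 4) F)}

theorem ty_of_data (hR : IsLinearSymplecticTypeData 2 R) : Ty R := by
  have hfin : Finite R := Finite.of_injective _ Subtype.val_injective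
  obtain ⟨p, e, -, -, h⟩ := hR.field
  rcases h with ⟨h, -⟩ | ⟨-, -, hZ, -, m, hm⟩ | ⟨-, -, h, -⟩
  · exact absurd h (by decide)
  · have h1 := H921.card_eq_pow_of_center_four hR.symplecticType hR.absIrred hZ hm
    rw [Fintype.card_fin] at h1
    have hm2 : m = 2 := by
      have h2 : (2 : ℕ) ^ 2 = 2 ^ m := by rw [← h1]; norm_num
      exact (Nat.pow_right_injective le_rfl h2).symm
    exact ⟨hR.symplecticType, hR.absIrred, hZ, by rw [hm, hm2]; norm_num⟩
  · rw [Fintype.card_fin] at h
    norm_num at h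

/-- On a prime field there is no unitary form. -/
theorem no_unitary {p : ℕ} (hp : p.Prime) (hF : Fintype.card F = p) {σ : F ≃+* F}
    {f : (Fin 4 → F) → (Fin 4 → F) → F} : ¬ IsUnitaryForm σ f := by
  intro h
  apply h.ne_refl
  let e : ZMod p ≃+* F := ZMod.ringEquivOfPrime F hp hF
  ext x
  obtain ⟨a, rfl⟩ := e.surjective x
  have h1 : (σ : F →+* F).comp (e : ZMod p →+* F) = (e : ZMod p →+* F) := Subsingleton.elim _ _
  exact RingHom.congr_fun h1 a

theorem no_subfield {p : ℕ} (hp : p.Prime) (hF : Fintype.card F = p) {F₀ : Subfield F} {r : ℕ} (hr : r.Prime) :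
    Fintype.card F ≠ Nat.card F₀ ^ r := by
  intro h
  rw [hF] at h
  rw [h] at hp
  exact Nat.Prime.not_prime_pow hr.two_le hp

/-- **Maximality of the normaliser of `4 ∘ 2^{1+4}` in `SL₄(p)`**, `p ≡ 1 mod 4`, from the residual class. -/
theorem sl4_c6_maximal {p : ℕ} (hp : p.Prime) (hF : Fintype.card F = p)
    (hR : IsLinearSymplecticTypeData 2 R)
    (hSch : ∀ (K : Type u) [Group K] [Finite K] [IsSimpleGroup K], ¬ IsMulCommutative K → Schreier.Basic.Sch K)
    (hres : ∀ H : Subgroup (GL (Fin 4) F), IsMaximalIn (specialLinear (Fin 4) F) H → InLinearResidualClass H →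
      ∃ P, IsResidualCore H P ∧ ¬ 5760 ∣ Nat.card (P ⧸ (scalars (Fin 4) F).subgroupOf P)) :
    IsMaximalIn (specialLinear (Fin 4) F) (subgroupNormalizer R ⊓ specialLinear (Fin 4) F) := by
  have hfin : Finite (GL (Fin 4) F) := inferInstance
  have hT := ty_of_data hR
  obtain ⟨C, Y, hY, hRY⟩ := hT.exists_core
  have hYS : Y ≤ specialLinear (Fin 4) F := perfect_le_specialLinear hY.perfect
  have habs : ActsAbsolutelyIrreducibly (matrixSet Y) := absIrred_mono hRY hT.abs
  apply H905.isMaximalIn_of_forall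
  · refine lt_of_le_of_ne inf_le_right fun h => ?_
    exact H905.not_sl_le_subgroupNormalizer (by simp) hR.symplecticType hR.absIrred (h ▸ inf_le_left)
  · intro H hH hle
    have hYH : Y ≤ H := (le_inf hY.le hYS).trans hle
    rcases Cfsg.Agent.S5781.result H hH with ⟨W, h0, h1, rfl⟩ | ⟨-, D, hD, rfl⟩ | ⟨-, D, hD, rfl⟩ |
        ⟨K, hK, rfl⟩ | ⟨F₀, r, P, hr, hc, rfl⟩ | ⟨p', R', -, -, -, hR', rfl⟩ | ⟨-, Q, hQ, rfl⟩ |
        ⟨f, hf, rfl⟩ | ⟨σ, f, hf, rfl⟩ | hS
    · exact absurd (hYH.trans inf_le_left) (H918.not_le_subspaceStabilizer habs.1 h0 h1)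
    · exact absurd (hYH.trans inf_le_left) (not_le_decomp hY.perfect habs.1 le_rfl hD)
    · exact absurd (hYH.trans inf_le_left) (not_le_decomp hY.perfect habs.1 (by norm_num) hD)
    · exact absurd (hYH.trans inf_le_left) (H918.not_le_subalgebraNormalizer hY.perfect habs le_rfl hK)
    · exact absurd hc (no_subfield hp hF hr)
    · rw [hY.unique hRY hT (ty_of_data hR') (hYH.trans inf_le_left)]
    · exact absurd (hYH.trans inf_le_left) (not_le_quadSimilarity hT hY.perfect hRY hQ)
    · exact absurd (hYH.trans inf_le_left)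
        (not_le_similarity hT hY.perfect hRY hf.bilinear hf.nondegenerate)
    · exact absurd hf (no_unitary hp hF)
    · exfalso
      obtain ⟨P, hP, hn⟩ := hres H hH hS
      have hYP : Y ≤ P := H917.le_core hP hSch hYH hY.perfect
      apply hn
      refine (hY.dvd_card hRY hT.abs hT.card_ι hT.comm).trans ?_
      -- `Y / (Y ∩ Z)` embeds in `P / (P ∩ Z)`
      let ρ : Y →* P ⧸ (scalars (Fin 4) F).subgroupOf P :=
        (QuotientGroup.mk' _).comp (Subgroup.inclusion hYP)
      have hρ : ρ.ker = (scalars (Fin 4) F).subgroupOf Y := by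
        ext x
        rw [MonoidHom.mem_ker, Subgroup.mem_subgroupOf]
        change (QuotientGroup.mk (Subgroup.inclusion hYP x) : P ⧸ (scalars (Fin 4) F).subgroupOf P) = 1 ↔ _
        rw [QuotientGroup.eq_one_iff, Subgroup.mem_subgroupOf]
        rfl
      have h1 : Nat.card (Y ⧸ ρ.ker) = Nat.card ρ.range :=
        Nat.card_congr (QuotientGroup.quotientKerEquivRange ρ).toEquiv
      rw [← hρ, h1]
      exact Subgroup.card_subgroup_dvd_card _

end Cfsg.Agent.H827.CF
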