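import Cfsg.Agent.ClassicalGeometry.SympBasic
import Cfsg.Agent.LieClassical.SpFourTwo

/-!
The derived group of `Sp₄(2) ≅ S₆`: perfect, of order 360, transitive on the non-zero vectors.
-/

set_option autoImplicit false

namespace Cfsg.Agent.H827.SpFourD

open Matrix Cfsg Cfsg.Agent.ClassicalGeometry.SympBasic
open scoped commutatorElement

/-- `Sp₄(2)`. -/
abbrev S := Matrix.symplecticGroup (Fin 2) (ZMod 2)

/-- The derived group of `Sp₄(2)`. -/
abbrev D : Subgroup S := commutator S

theorem exists_equiv : Nonempty (S ≃* Equiv.Perm (Fin 6)) :=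
  Cfsg.Agent.LieClassical.SpFourTwo.nonempty_equiv_perm (F := ZMod 2) (ZMod.card 2)

theorem map_D (e : S ≃* Equiv.Perm (Fin 6)) :
    D.map (e : S →* Equiv.Perm (Fin 6)) = alternatingGroup (Fin 6) := by
  rw [D, commutator_def, Subgroup.map_commutator, Subgroup.map_top_of_surjective _ e.surjective, ← commutator_def,
    alternatingGroup.commutator_perm_eq (by simp)]

theorem perfect : ⁅D, D⁆ = D := by
  obtain ⟨e⟩ := exists_equiv
  apply Subgroup.map_injective (f := (e : S →* Equiv.Perm (Fin 6))) e.injective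
  rw [Subgroup.map_commutator, map_D, commutator_alternatingGroup_eq_self (by simp)]

theorem card_D : Nat.card D = 360 := by
  obtain ⟨e⟩ := exists_equiv
  have h1 : Nat.card (D.map (e : S →* Equiv.Perm (Fin 6))) = Nat.card D :=
    Nat.card_congr (Subgroup.equivMapOfInjective D (e : S →* Equiv.Perm (Fin 6)) e.injective).symm.toEquiv
  rw [← h1, map_D]
  have h2 := two_mul_nat_card_alternatingGroup (α := Fin 6)
  rw [Nat.card_perm, Nat.card_eq_fintype_card (α := Fin 6), Fintype.card_fin] at h2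
  have h3 : Nat.factorial 6 = 720 := by decide
  rw [h3] at h2
  omega

theorem card_S : Nat.card S = 720 := by
  obtain ⟨e⟩ := exists_equiv
  rw [Nat.card_congr e.toEquiv, Nat.card_perm, Nat.card_eq_fintype_card, Fintype.card_fin]
  decide

/-- A product of two transvections lies in the derived group. -/
theorem transv_mul_mem {a b : Fin 2 ⊕ Fin 2 → ZMod 2} (ha : a ≠ 0) (hb : b ≠ 0) :
    transv a 1 * transv b 1 ∈ D := by
  obtain ⟨g, -, hg⟩ := exists_transvGroup_mulVec_eq hb ha
  have h1 : (transv a 1 : S) = g * transv b 1 * g⁻¹ := by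
    rw [eq_mul_inv_iff_mul_eq]
    apply Subtype.ext
    have := mul_sympTransvection g.2 b 1
    rw [hg] at this
    exact this.symm
  have h2 : (transv b 1 : S)⁻¹ = transv b 1 := by
    rw [inv_eq_iff_mul_eq_one]
    apply Subtype.ext
    change sympTransvection 2 b 1 * sympTransvection 2 b 1 = 1
    rw [sympTransvection_mul, show (1 : ZMod 2) + 1 = 0 from by decide, sympTransvection_zero]
  have h3 : (transv a 1 : S) * transv b 1 = ⁅g, (transv b 1 : S)⁆ := by
    rw [commutatorElement_def, h2, h1]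
  rw [h3]
  exact Subgroup.commutator_mem_commutator (Subgroup.mem_top _) (Subgroup.mem_top _)

theorem zmod_two_eq_one_of_ne_zero : ∀ a : ZMod 2, a ≠ 0 → a = 1 := by decide

/-- `D` is transitive on the non-zero vectors. -/
theorem trans {x y : Fin 2 ⊕ Fin 2 → ZMod 2} (hx : x ≠ 0) (hy : y ≠ 0) :
    ∃ A ∈ D, (A : Matrix (Fin 2 ⊕ Fin 2) (Fin 2 ⊕ Fin 2) (ZMod 2)) *ᵥ x = y := by
  obtain ⟨z, hxz, hyz⟩ := exists_both_ne_zero hx hy
  have hzy : sympForm 2 (ZMod 2) z y ≠ 0 := by
    rw [sympForm_swap]; exact neg_ne_zero.2 hyz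
  have h1 : (sympForm 2 (ZMod 2) z y)⁻¹ = 1 := zmod_two_eq_one_of_ne_zero _ (inv_ne_zero hzy)
  have h2 : (sympForm 2 (ZMod 2) x z)⁻¹ = 1 := zmod_two_eq_one_of_ne_zero _ (inv_ne_zero hxz)
  refine ⟨transv (y - z) 1 * transv (z - x) 1, transv_mul_mem ?_ ?_, ?_⟩
  · intro h
    rw [sub_eq_zero] at h
    rw [h, sympForm_self] at hzy
    exact hzy rfl
  · intro h
    rw [sub_eq_zero] at h
    rw [h, sympForm_self] at hxz
    exact hxz rfl
  · have e1 := transv_sub_mulVec hxz
    have e2 := transv_sub_mulVec hzy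
    rw [h2] at e1
    rw [h1] at e2
    rw [coe_mul_mulVec, coe_transv, coe_transv, e1, e2]

end Cfsg.Agent.H827.SpFourD
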