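import Cfsg.Agent.H920.CsSpan
import Cfsg.Agent.H827.SpFourD

/-!
# The normaliser of `4 ∘ 2^{1+4}` (dimension four)

`Core4 C Y` : `Y` is the perfect residual of `N(R)`, inducing `Sp₄(2)' ≅ A₆` on the coordinates.
-/

set_option autoImplicit false

namespace Cfsg.Agent.H827.CF

open Cfsg Cfsg.Geo Matrix Cfsg.Agent.ClassicalGeometry.SympBasic Cfsg.Agent.H920
open scoped commutatorElement

variable {ι : Type} [Fintype ι] [DecidableEq ι] {F : Type*} [Field F] {R : Subgroup (GL ι F)}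
variable {C : Coord R 2 2} {Y : Subgroup (GL ι F)}

/-- The perfect residual of the normaliser. -/
structure Core4 (C : Coord R 2 2) (Y : Subgroup (GL ι F)) : Prop where
  le : Y ≤ subgroupNormalizer R
  perfect : ⁅Y, Y⁆ = Y
  normal : ∀ g ∈ subgroupNormalizer R, ∀ y ∈ Y, g * y * g⁻¹ ∈ Y
  ind : ∀ A ∈ SpFourD.D, ∃ g ∈ Y, C.Ind g (A : Matrix (Fin 2 ⊕ Fin 2) (Fin 2 ⊕ Fin 2) (ZMod 2))
  residual : ∀ K : Subgroup (GL ι F), K ≤ subgroupNormalizer R → ⁅K, K⁆ = K → K ≤ Y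

/-- All terms of the derived series of the normaliser induce the derived group of the symplectic group. -/
theorem ind_derivedSeries [Finite R] (C : Coord R 2 2)
    (hall : ∀ A : SpFourD.S, ∃ g : GL ι F,
      C.Ind g (A : Matrix (Fin 2 ⊕ Fin 2) (Fin 2 ⊕ Fin 2) (ZMod 2))) (n : ℕ)
    (A : SpFourD.S) (hAD : A ∈ SpFourD.D) :
    ∃ g ∈ derivedSeries (subgroupNormalizer R) n,
      C.Ind (g : GL ι F) (A : Matrix (Fin 2 ⊕ Fin 2) (Fin 2 ⊕ Fin 2) (ZMod 2)) := by
  induction n generalizing A with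
  | zero =>
    obtain ⟨g, hg⟩ := hall A
    exact ⟨⟨g, hg.mem_normalizer⟩, Subgroup.mem_top _, hg⟩
  | succ n ih =>
    have hA : A ∈ Subgroup.closure {g | ∃ g₁ ∈ SpFourD.D, ∃ g₂ ∈ SpFourD.D, ⁅g₁, g₂⁆ = g} := by
      rw [← Subgroup.commutator_def, SpFourD.perfect]
      exact hAD
    induction hA using Subgroup.closure_induction with
    | mem A hA =>
      obtain ⟨B₁, hB₁, B₂, hB₂, rfl⟩ := hA
      obtain ⟨g₁, h₁, h₁'⟩ := ih B₁ hB₁
      obtain ⟨g₂, h₂, h₂'⟩ := ih B₂ hB₂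
      refine ⟨⁅g₁, g₂⁆, Subgroup.commutator_mem_commutator h₁ h₂, ?_⟩
      rw [commutatorElement_def, commutatorElement_def]
      exact ((h₁'.mul h₂').mul h₁'.invS).mul h₂'.invS
    | one => exact ⟨1, Subgroup.one_mem _, Coord.Ind.one C⟩
    | mul A B hA' hB' hA hB =>
      have e : ∀ X, X ∈ Subgroup.closure {g | ∃ g₁ ∈ SpFourD.D, ∃ g₂ ∈ SpFourD.D, ⁅g₁, g₂⁆ = g} →
          X ∈ SpFourD.D := by
        intro X hX
        rwa [← Subgroup.commutator_def, SpFourD.perfect] at hX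
      obtain ⟨g₁, h₁, h₁'⟩ := hA (e A hA')
      obtain ⟨g₂, h₂, h₂'⟩ := hB (e B hB')
      exact ⟨g₁ * g₂, Subgroup.mul_mem _ h₁ h₂, h₁'.mul h₂'⟩
    | inv A hA' hA =>
      have e : ∀ X, X ∈ Subgroup.closure {g | ∃ g₁ ∈ SpFourD.D, ∃ g₂ ∈ SpFourD.D, ⁅g₁, g₂⁆ = g} →
          X ∈ SpFourD.D := by
        intro X hX
        rwa [← Subgroup.commutator_def, SpFourD.perfect] at hX
      obtain ⟨g₁, h₁, h₁'⟩ := hA (e A hA')
      exact ⟨g₁⁻¹, Subgroup.inv_mem _ h₁, h₁'.invS⟩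

theorem exists_core4 [Finite F] (C : Coord R 2 2)
    (hall : ∀ A : SpFourD.S, ∃ g : GL ι F,
      C.Ind g (A : Matrix (Fin 2 ⊕ Fin 2) (Fin 2 ⊕ Fin 2) (ZMod 2))) :
    ∃ Y : Subgroup (GL ι F), Core4 C Y := by
  have hfin : Finite (GL ι F) := inferInstance
  obtain ⟨N, hN, hperf', n, hn⟩ := exists_perfect_residual (subgroupNormalizer R)
  refine ⟨N.map (subgroupNormalizer R).subtype, ?_, ?_, ?_, ?_, ?_⟩
  · rintro _ ⟨x, -, rfl⟩
    exact x.2
  · rw [← Subgroup.map_commutator, hperf']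
  · exact conj_mem_map inferInstance
  · intro A hA
    obtain ⟨g, hg, hg'⟩ := ind_derivedSeries C hall n A hA
    rw [hn] at hg
    exact ⟨g, ⟨g, hg, rfl⟩, hg'⟩
  · intro K hK hKK
    have h1 : ∀ m, K.subgroupOf (subgroupNormalizer R) ≤ derivedSeries (subgroupNormalizer R) m := by
      intro m
      induction m with
      | zero => exact le_top
      | succ m ih =>
        rw [derivedSeries_succ]
        refine le_trans ?_ (Subgroup.commutator_mono ih ih)
        have h2 : ⁅K.subgroupOf (subgroupNormalizer R), K.subgroupOf (subgroupNormalizer R)⁆ =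
            K.subgroupOf (subgroupNormalizer R) := by
          apply Subgroup.map_injective (subgroupNormalizer R).subtype_injective
          rw [Subgroup.map_commutator, Subgroup.map_subgroupOf_eq_of_le hK, hKK]
        rw [h2]
    intro x hx
    have h2 := h1 n (show (⟨x, hK hx⟩ : subgroupNormalizer R) ∈ K.subgroupOf (subgroupNormalizer R) from
      Subgroup.mem_subgroupOf.2 hx)
    rw [hn] at h2
    exact ⟨⟨x, hK hx⟩, h2, rfl⟩

/-- Transitivity on non-zero vectors. -/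
theorem Core4.trans (hY : Core4 C Y) {x x' : R} (hx : C.φ x ≠ 0) (hx' : C.φ x' ≠ 0) :
    ∃ g ∈ Y, ∃ y : R, g * x * g⁻¹ = y ∧ C.φ y = C.φ x' := by
  obtain ⟨A, hA, hA'⟩ := SpFourD.trans hx hx'
  obtain ⟨g, hg, hg'⟩ := hY.ind _ hA
  obtain ⟨y, h1, h2⟩ := hg' x
  refine ⟨g, hg, y, h1, ?_⟩
  rw [h2, hA']

/-- Up to scalars `R ≤ Y`; more precisely each coset contains an element of `R ⊓ Y`. -/
theorem Core4.exists_mem_inf (hY : Core4 C Y) (v : Fin 2 ⊕ Fin 2 → ZMod 2) :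
    ∃ x : R, C.φ x = v ∧ (x : GL ι F) ∈ Y := by
  rcases eq_or_ne v 0 with rfl | hv
  · exact ⟨1, C.φ_one, Subgroup.one_mem _⟩
  · -- one non-zero vector
    obtain ⟨x, hx, hxY⟩ : ∃ x : R, C.φ x ≠ 0 ∧ (x : GL ι F) ∈ Y := by
      let u : Fin 2 ⊕ Fin 2 → ZMod 2 := Pi.single (Sum.inl 0) 1
      let u' : Fin 2 ⊕ Fin 2 → ZMod 2 := Pi.single (Sum.inl 1) 1
      have hu : u ≠ 0 := by
        intro h
        have := congrFun h (Sum.inl 0)
        simp [u] at this
      have hu' : u' ≠ 0 := by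
        intro h
        have := congrFun h (Sum.inl 1)
        simp [u'] at this
      have huu' : u' - u ≠ 0 := by
        intro h
        have := congrFun h (Sum.inl 1)
        simp [u', u] at this
      obtain ⟨A, hA, hA'⟩ := SpFourD.trans hu hu'
      obtain ⟨g, hg, hg'⟩ := hY.ind _ hA
      obtain ⟨w, hw⟩ := C.surj u
      obtain ⟨y, h1, h2⟩ := hg' w
      refine ⟨y * w⁻¹, ?_, ?_⟩
      · rw [C.map_mul, C.φ_inv, h2, hw, hA', ← sub_eq_add_neg]
        exact huu'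
      · rw [Subgroup.coe_mul, Subgroup.coe_inv, ← h1]
        have h3 := hY.normal w (le_subgroupNormalizer w.2) g⁻¹ (Y.inv_mem hg)
        have h4 := Y.mul_mem hg h3
        rw [show g * w * g⁻¹ * (w : GL ι F)⁻¹ = g * (w * g⁻¹ * (w : GL ι F)⁻¹) by group]
        exact h4
    obtain ⟨w, hw⟩ := C.surj v
    obtain ⟨g, hg, y, h1, h2⟩ := hY.trans hx (x' := w) (by rw [hw]; exact hv)
    refine ⟨y, h2.trans hw, ?_⟩
    rw [← h1]
    exact Y.mul_mem (Y.mul_mem hg hxY) (Y.inv_mem hg)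

theorem Core4.exists_scalar_mem (hY : Core4 C Y) (a : ZMod 2) :
    ∃ z : R, (z : GL ι F) ∈ Y ∧ ((z : GL ι F) : Matrix ι ι F) = C.χ a • (1 : Matrix ι ι F) := by
  obtain ⟨x, hx, hxY⟩ := hY.exists_mem_inf (Pi.single (Sum.inr 0) 1)
  obtain ⟨y, hy, hyY⟩ := hY.exists_mem_inf (Pi.single (Sum.inl 0) a)
  have h : sympForm 2 (ZMod 2) (C.φ x) (C.φ y) = a := by
    rw [hx, hy, sympForm_single_inr_left]
    simp
  refine ⟨x * y * x⁻¹ * y⁻¹, ?_, ?_⟩
  · exact Y.mul_mem (Y.mul_mem (Y.mul_mem hxY hyY) (Y.inv_mem hxY)) (Y.inv_mem hyY)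
  · rw [C.commutator_eq, h]

/-- If all scalars of `R` are in `Y` then `R ≤ Y`. -/
theorem Core4.le_of_scalars (hY : Core4 C Y)
    (h : ∀ z : R, (z : GL ι F) ∈ scalars ι F → (z : GL ι F) ∈ Y) : R ≤ Y := by
  intro x hx
  obtain ⟨x', h1, h2⟩ := hY.exists_mem_inf (C.φ ⟨x, hx⟩)
  rw [C.φ_eq_iff] at h1
  have h3 := h _ h1
  rw [Subgroup.coe_mul, Subgroup.coe_inv] at h3
  have h4 := Y.mul_mem h2 h3
  rw [mul_inv_cancel_left] at h4
  exact h4

/-- Type `4 ∘ 2^{1+2k}`. -/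
theorem Core4.le_of_four {C : Coord R 2 2} [Finite R] [Nonempty ι] (hR : IsSymplecticTypeGroup 2 R)
    (hY : Core4 C Y)
    (habs : ActsAbsolutelyIrreducibly (matrixSet R)) (hZ : Nat.card (Subgroup.center R) = 4) : R ≤ Y := by
  classical
  have h2p : Fact (Nat.Prime 2) := ⟨Nat.prime_two⟩
  -- the scalars of `R`
  obtain ⟨z₀, i, hi, hz₀, -, hz₀c⟩ := exists_i_of_type hR habs hZ
  have hχ : C.χ 1 = -1 := by
    have h2 : C.χ 1 ^ 2 = 1 := by
      rw [← AddChar.map_nsmul_eq_pow, zmod2_a, AddChar.map_zero_eq_one]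
    rcases (mul_self_eq_one_iff.1 ((pow_two _).symm.trans h2)) with h3 | h3
    · exfalso
      have : (1 : ZMod 2) = 0 := C.inj (by rw [h3, AddChar.map_zero_eq_one])
      exact zmod2_d this
    · exact h3
  have hneg : (1 : F) ≠ -1 := by
    intro h
    have : (1 : ZMod 2) = 0 := C.inj (by rw [hχ, AddChar.map_zero_eq_one, ← h])
    exact zmod2_d this
  -- scalars `c` of `R` satisfy `c ^ 4 = 1`
  have hsc : ∀ z : R, (z : GL ι F) ∈ scalars ι F → ∃ c : F, ((z : GL ι F) : Matrix ι ι F) = c • (1 : Matrix ι ι F) ∧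
      (c = 1 ∨ c = -1 ∨ c = i ∨ c = -i) := by
    intro z hz
    obtain ⟨c, hc⟩ := (mem_scalars_iff _).1 hz
    refine ⟨c, hc, ?_⟩
    have hzc := mem_center_of_mem_scalars habs hz
    have h1 : (⟨z, hzc⟩ : Subgroup.center R) ^ 4 = 1 := by
      rw [← hZ]; exact pow_card_eq_one'
    have h2 : ((z : GL ι F)) ^ 4 = 1 := by
      have := congrArg (fun a : Subgroup.center R => ((a : R) : GL ι F)) h1
      simpa using this
    have h3 : (c : F) ^ 4 = 1 := by
      apply smul_one_injective (ι := ι)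
      rw [← pow_eq_one_of_smul hc, h2, one_smul]; rfl
    have h4 : ((c : F) - 1) * (((c : F) + 1) * (((c : F) - i) * ((c : F) + i))) = 0 := by
      linear_combination h3 - ((c : F) ^ 2 - 1) * hi
    rcases mul_eq_zero.1 h4 with h | h
    · exact Or.inl (sub_eq_zero.1 h)
    rcases mul_eq_zero.1 h with h | h
    · exact Or.inr (Or.inl (eq_neg_of_add_eq_zero_left h))
    rcases mul_eq_zero.1 h with h | h
    · exact Or.inr (Or.inr (Or.inl (sub_eq_zero.1 h)))
    · exact Or.inr (Or.inr (Or.inr (eq_neg_of_add_eq_zero_left h)))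
  obtain ⟨zm, hzmY, hzm⟩ := hY.exists_scalar_mem 1
  rw [hχ] at hzm
  -- it suffices to have one of `± i` in `Y`
  suffices hmain : ∃ z : R, (z : GL ι F) ∈ Y ∧ (((z : GL ι F) : Matrix ι ι F) = i • (1 : Matrix ι ι F) ∨
      ((z : GL ι F) : Matrix ι ι F) = (-i) • (1 : Matrix ι ι F)) by
    apply hY.le_of_scalars
    intro z hz
    obtain ⟨c, hc, hc'⟩ := hsc z hz
    have hall : ∀ c' : F, (c' = 1 ∨ c' = -1 ∨ c' = i ∨ c' = -i) → ∃ w : GL ι F, w ∈ Y ∧
        (w : Matrix ι ι F) = c' • (1 : Matrix ι ι F) := by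
      obtain ⟨w, hwY, hw⟩ := hmain
      rintro c' (rfl | rfl | rfl | rfl)
      · exact ⟨1, Y.one_mem, by rw [one_smul]; rfl⟩
      · exact ⟨zm, hzmY, hzm⟩
      · rcases hw with hw | hw
        · exact ⟨w, hwY, hw⟩
        · refine ⟨w * zm, Y.mul_mem hwY hzmY, ?_⟩
          rw [Units.val_mul, hw, hzm, smul_mul_smul_comm, one_mul]; congr 1; ring
      · rcases hw with hw | hw
        · refine ⟨w * zm, Y.mul_mem hwY hzmY, ?_⟩
          rw [Units.val_mul, hw, hzm, smul_mul_smul_comm, one_mul]; congr 1; ring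
        · exact ⟨w, hwY, hw⟩
    obtain ⟨w, hwY, hw⟩ := hall c hc'
    have : (z : GL ι F) = w := Units.ext (by rw [hc, hw])
    rw [this]; exact hwY
  by_contra hcon
  push Not at hcon
  -- scalars of `R ∩ Y` are `± 1`
  have hpm : ∀ z : R, (z : GL ι F) ∈ scalars ι F → (z : GL ι F) ∈ Y → (z : GL ι F) * z = 1 := by
    intro z hz hzY
    obtain ⟨c, hc, hc'⟩ := hsc z hz
    have := hcon z hzY
    apply Units.ext
    rw [Units.val_mul, hc, smul_mul_smul_comm, one_mul, Units.val_one]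
    rcases hc' with h | h | h | h
    · rw [h, one_mul, one_smul]
    · rw [h]; simp
    · rw [h] at hc; exact absurd hc this.1
    · rw [h] at hc; exact absurd hc this.2
  -- the square is constant
  have hconst : ∀ x y : R, (x : GL ι F) ∈ Y → (y : GL ι F) ∈ Y → C.φ x ≠ 0 → C.φ y ≠ 0 →
      (x : GL ι F) * x = (y : GL ι F) * y := by
    intro x y hxY hyY hx hy
    obtain ⟨g, hg, y', h1, h2⟩ := hY.trans hx hy
    rw [C.φ_eq_iff] at h2
    have hy'Y : (y' : GL ι F) ∈ Y := by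
      rw [← h1]; exact Y.mul_mem (Y.mul_mem hg hxY) (Y.inv_mem hg)
    have h3 := hpm _ h2 (Y.mul_mem (Y.inv_mem hy'Y) hyY)
    rw [Subgroup.coe_mul, Subgroup.coe_inv] at h2 h3
    have h4 : (y : GL ι F) = y' * ((y' : GL ι F)⁻¹ * y) := by group
    have h5 : (y : GL ι F) * y = y' * y' := by
      have h6 := scalars_comm h2 (y' : GL ι F)
      calc (y : GL ι F) * y = y' * ((y' : GL ι F)⁻¹ * y) * (y' * ((y' : GL ι F)⁻¹ * y)) := by rw [← h4]
        _ = y' * (((y' : GL ι F)⁻¹ * y) * y') * ((y' : GL ι F)⁻¹ * y) := by group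
        _ = y' * y' * (((y' : GL ι F)⁻¹ * y) * ((y' : GL ι F)⁻¹ * y)) := by rw [h6]; group
        _ = y' * y' := by rw [h3, mul_one]
    have h6 : (y' : GL ι F) * y' = g * (x * x) * g⁻¹ := by rw [← h1]; group
    have h7 := C.sq_mem_scalars x
    rw [Subgroup.coe_mul] at h7
    rw [h5, h6, ← scalars_comm h7 g, mul_inv_cancel_right]
  let i₀ : Fin 2 := 0
  let i₁ : Fin 2 := 1
  have hi01 : i₀ ≠ i₁ := by
    intro h
    have := congrArg Fin.val h
    simp [i₀, i₁] at this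
  obtain ⟨x, hx, hxY⟩ := hY.exists_mem_inf (Pi.single (Sum.inr i₀) 1)
  obtain ⟨y, hy, hyY⟩ := hY.exists_mem_inf (Pi.single (Sum.inl i₀) 1)
  obtain ⟨y', hy', hy'Y⟩ := hY.exists_mem_inf (Pi.single (Sum.inl i₁) 1)
  have hne : ∀ (a : Fin 2 ⊕ Fin 2) (v : Vec 2 2), v a = 1 → v ≠ 0 := by
    intro a v hv h0
    rw [h0] at hv
    exact zmod2_d hv.symm
  have hx0 : C.φ x ≠ 0 := hne (Sum.inr i₀) _ (by rw [hx]; simp)
  have hy0 : C.φ y ≠ 0 := hne (Sum.inl i₀) _ (by rw [hy]; simp)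
  have hy'0 : C.φ y' ≠ 0 := hne (Sum.inl i₁) _ (by rw [hy']; simp)
  have hxy0 : C.φ (x * y) ≠ 0 := hne (Sum.inl i₀) _ (by rw [C.map_mul, hx, hy]; simp)
  have hxy'0 : C.φ (x * y') ≠ 0 := hne (Sum.inl i₁) _ (by rw [C.map_mul, hx, hy']; simp)
  have hf1 : sympForm 2 (ZMod 2) (C.φ x) (C.φ y) = 1 := by
    rw [hx, hy, sympForm_single_inr_left]; simp
  have hf2 : sympForm 2 (ZMod 2) (C.φ x) (C.φ y') = 0 := by
    rw [hx, hy', sympForm_single_inr_left]; simp [hi01]
  -- matrices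
  obtain ⟨c, hc⟩ := (mem_scalars_iff _).1 (C.sq_mem_scalars x)
  have hc' : ∀ w : R, (w : GL ι F) ∈ Y → C.φ w ≠ 0 →
      ((w : GL ι F) : Matrix ι ι F) * ((w : GL ι F) : Matrix ι ι F) = (c : F) • (1 : Matrix ι ι F) := by
    intro w hw hw0
    rw [← Units.val_mul, ← hconst x w hxY hw hx0 hw0, ← Subgroup.coe_mul, hc]
  have e1 := hc' _ hxY hx0
  have e2 := hc' _ hyY hy0
  have e3 := hc' _ hy'Y hy'0
  have e4 := hc' (x * y) (Y.mul_mem hxY hyY) hxy0
  have e5 := hc' (x * y') (Y.mul_mem hxY hy'Y) hxy'0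
  have c1 := C.comm x y
  have c2 := C.comm x y'
  rw [hf1, hχ] at c1
  rw [hf2, AddChar.map_zero_eq_one, one_smul] at c2
  rw [Subgroup.coe_mul, Units.val_mul] at e4 e5
  set X := ((x : GL ι F) : Matrix ι ι F)
  set V := ((y : GL ι F) : Matrix ι ι F)
  set V' := ((y' : GL ι F) : Matrix ι ι F)
  have e6 : (X * V) * (X * V) = (-(c * c : F)) • (1 : Matrix ι ι F) := by
    have : V * X = (-1 : F) • (X * V) := by rw [c1, smul_smul]; simp
    calc (X * V) * (X * V) = X * (V * X) * V := by simp only [Matrix.mul_assoc]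
      _ = (-1 : F) • ((X * X) * (V * V)) := by
          rw [this]; simp only [Matrix.mul_assoc, Matrix.mul_smul, Matrix.smul_mul]
      _ = (-(c * c : F)) • (1 : Matrix ι ι F) := by
          rw [e1, e2, smul_mul_smul_comm, one_mul, smul_smul]; congr 1; ring
  have e7 : (X * V') * (X * V') = ((c * c : F)) • (1 : Matrix ι ι F) := by
    calc (X * V') * (X * V') = X * (V' * X) * V' := by simp only [Matrix.mul_assoc]
      _ = ((X * X) * (V' * V')) := by
          rw [← c2]; simp only [Matrix.mul_assoc]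
      _ = ((c * c : F)) • (1 : Matrix ι ι F) := by
          rw [e1, e3, smul_mul_smul_comm, one_mul]
  rw [e4] at e6
  rw [e5] at e7
  have f1 := smul_one_injective (ι := ι) e6
  have f2 := smul_one_injective (ι := ι) e7
  have hc0 : (c : F) ≠ 0 := c.ne_zero
  have f3 : (c : F) = 1 := by
    have := mul_left_cancel₀ hc0 (show (c : F) * c = (c : F) * 1 by rw [mul_one]; exact f2.symm)
    exact this
  rw [f3] at f1
  exact hneg (f1.trans (by ring))


/-- Non-scalar subgroups normalised by `Y` and contained in the normaliser contain `R` up to scalars. -/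
theorem Core4.le_of_normalized [Nonempty ι] (hY : Core4 C Y) (habs : ActsAbsolutelyIrreducibly (matrixSet R))
    {K : Subgroup (GL ι F)} (hKN : K ≤ subgroupNormalizer R) (hK : ∀ y ∈ Y, ∀ x ∈ K, y * x * y⁻¹ ∈ K)
    (hns : ¬ K ≤ scalars ι F) (x : R) : ∃ k ∈ K, (x : GL ι F)⁻¹ * k ∈ scalars ι F := by
  have _h2p : Fact (Nat.Prime 2) := ⟨Nat.prime_two⟩
  obtain ⟨g, hg, hgs⟩ := SetLike.not_le_iff_exists.1 hns
  -- an element of `K` in a non-trivial coset
  obtain ⟨w, k, hk, hwk, hw⟩ : ∃ (w : R), ∃ k ∈ K, (w : GL ι F)⁻¹ * k ∈ scalars ι F ∧ C.φ w ≠ 0 := by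
    obtain ⟨A, hA, hgA⟩ := C.exists_ind_of_mem (hKN hg)
    by_cases hA1 : A = 1
    · subst hA1
      obtain ⟨w, hw⟩ := C.mem_of_ind_one habs hgA
      refine ⟨w, g, hg, hw, fun h0 => hgs ?_⟩
      have h1 := (C.ker_iff w).1 h0
      have h2 := Subgroup.mul_mem _ h1 hw
      rwa [mul_inv_cancel_left] at h2
    · obtain ⟨v, hv⟩ : ∃ v, A *ᵥ v ≠ v := by
        by_contra hcon
        push Not at hcon
        apply hA1
        rw [← Matrix.mulVec_injective.eq_iff]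
        funext v
        rw [hcon, Matrix.one_mulVec]
      obtain ⟨x', hx', hxY⟩ := hY.exists_mem_inf v
      obtain ⟨y, h1, h2⟩ := hgA x'
      refine ⟨y * x'⁻¹, y * (x' : GL ι F)⁻¹, ?_, ?_, ?_⟩
      · rw [← h1]
        have h3 := K.mul_mem hg (hK x' hxY g⁻¹ (K.inv_mem hg))
        rw [show g * x' * g⁻¹ * (x' : GL ι F)⁻¹ = g * (x' * g⁻¹ * (x' : GL ι F)⁻¹) by group]
        exact h3
      · rw [Subgroup.coe_mul, Subgroup.coe_inv, inv_mul_cancel]
        exact Subgroup.one_mem _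
      · rw [C.map_mul, C.φ_inv, h2, hx', ← sub_eq_add_neg]
        exact sub_ne_zero.2 hv
  by_cases hx0 : C.φ x = 0
  · refine ⟨1, K.one_mem, ?_⟩
    rw [mul_one]
    exact Subgroup.inv_mem _ ((C.ker_iff x).1 hx0)
  · obtain ⟨h, hh, y, h1, h2⟩ := hY.trans hw hx0
    refine ⟨h * k * h⁻¹, hK h hh k hk, ?_⟩
    rw [eq_comm, C.φ_eq_iff] at h2
    have h3 : h * k * h⁻¹ = y * ((w : GL ι F)⁻¹ * k) := by
      rw [← h1]
      have h4 := scalars_comm hwk h
      calc h * k * h⁻¹ = h * w * ((w : GL ι F)⁻¹ * k) * h⁻¹ := by group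
        _ = h * w * (((w : GL ι F)⁻¹ * k) * h⁻¹) := by group
        _ = h * w * (h⁻¹ * ((w : GL ι F)⁻¹ * k)) := by rw [scalars_comm hwk h⁻¹]
        _ = _ := by group
    rw [h3, ← mul_assoc]
    refine Subgroup.mul_mem _ ?_ hwk
    have h5 := h2
    rw [Subgroup.coe_mul, Subgroup.coe_inv] at h5
    exact h5

/-- The action of a subgroup of the normaliser on the coordinates. -/
noncomputable def toSp [Nonempty ι] (C : Coord R 2 2) {Y : Subgroup (GL ι F)} (hle : Y ≤ subgroupNormalizer R) :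
    Y →* SpFourD.S :=
  haveI h2p : Fact (Nat.Prime 2) := ⟨Nat.prime_two⟩
  MonoidHom.mk' (fun y => ⟨(C.exists_ind_of_mem (hle y.2)).choose,
      (C.exists_ind_of_mem (hle y.2)).choose_spec.1⟩) (fun a b => Subtype.ext
      ((C.exists_ind_of_mem (hle (a * b).2)).choose_spec.2.unique
        ((C.exists_ind_of_mem (hle a.2)).choose_spec.2.mul
          (C.exists_ind_of_mem (hle b.2)).choose_spec.2)))

theorem toSp_ind [Nonempty ι] (C : Coord R 2 2) {Y : Subgroup (GL ι F)} (hle : Y ≤ subgroupNormalizer R) (y : Y) :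
    C.Ind (y : GL ι F) (toSp C hle y : Matrix (Fin 2 ⊕ Fin 2) (Fin 2 ⊕ Fin 2) (ZMod 2)) := by
  have h2p : Fact (Nat.Prime 2) := ⟨Nat.prime_two⟩
  exact (C.exists_ind_of_mem (hle y.2)).choose_spec.2

/-- The action of `Y` on the coordinates. -/
noncomputable def Core4.toSp [Nonempty ι] (hY : Core4 C Y) : Y →* SpFourD.S := CF.toSp C hY.le

theorem Core4.toSp_ind [Nonempty ι] (hY : Core4 C Y) (y : Y) :
    C.Ind (y : GL ι F) (hY.toSp y : Matrix (Fin 2 ⊕ Fin 2) (Fin 2 ⊕ Fin 2) (ZMod 2)) := CF.toSp_ind C hY.le y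

theorem Core4.le_range [Nonempty ι] (hY : Core4 C Y) : SpFourD.D ≤ hY.toSp.range := by
  intro A hA
  obtain ⟨g, hg, hgA⟩ := hY.ind A hA
  exact ⟨⟨g, hg⟩, Subtype.ext ((hY.toSp_ind ⟨g, hg⟩).unique hgA)⟩

theorem Core4.mem_ker_of_ind [Nonempty ι] (hY : Core4 C Y) {y : Y} (h : C.Ind (y : GL ι F) 1) :
    y ∈ hY.toSp.ker :=
  Subtype.ext ((hY.toSp_ind y).unique h)

/-- The order of `Y` modulo scalars is divisible by `2⁴ · 360`. -/
theorem Core4.dvd_card [Finite F] [Nonempty ι] (hY : Core4 C Y) (hRY : R ≤ Y)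
    (habs : ActsAbsolutelyIrreducibly (matrixSet R)) (hι : Fintype.card ι = 4)
    (hcomm : ∀ x ∈ R, ∀ y ∈ R, x * y * x⁻¹ * y⁻¹ ∈ scalars ι F) :
    5760 ∣ Nat.card (Y ⧸ (scalars ι F).subgroupOf Y) := by
  have hfin : Finite (GL ι F) := inferInstance
  have hZn : ((scalars ι F).subgroupOf Y).Normal := inferInstance
  -- the quotient map
  have hker : (scalars ι F).subgroupOf Y ≤ hY.toSp.ker := by
    intro y hy
    apply hY.mem_ker_of_ind
    intro x
    refine ⟨x, ?_, by rw [Matrix.one_mulVec]⟩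
    have hy' : (y : GL ι F) ∈ scalars ι F := hy
    rw [scalars_comm hy' x, mul_inv_cancel_right]
  let ψ : Y ⧸ (scalars ι F).subgroupOf Y →* SpFourD.S := QuotientGroup.lift _ hY.toSp hker
  have hrange : SpFourD.D ≤ ψ.range := by
    intro A hA
    obtain ⟨y, hy⟩ := hY.le_range hA
    exact ⟨QuotientGroup.mk y, hy⟩
  have h360 : 360 ∣ Nat.card ψ.range := by
    rw [← SpFourD.card_D]
    exact Subgroup.card_dvd_of_le hrange
  -- the image of `R`
  let ρ : R →* Y ⧸ (scalars ι F).subgroupOf Y :=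
    (QuotientGroup.mk' _).comp (Subgroup.inclusion hRY)
  have hρker : ρ.ker = (scalars ι F).subgroupOf R := by
    ext x
    rw [MonoidHom.mem_ker, Subgroup.mem_subgroupOf]
    change (QuotientGroup.mk (Subgroup.inclusion hRY x) : Y ⧸ (scalars ι F).subgroupOf Y) = 1 ↔ _
    rw [QuotientGroup.eq_one_iff, Subgroup.mem_subgroupOf]
    rfl
  have h16 : Nat.card ρ.range = 16 := by
    have h1 : Nat.card (R ⧸ ρ.ker) = Nat.card ρ.range :=
      Nat.card_congr (QuotientGroup.quotientKerEquivRange ρ).toEquiv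
    rw [← h1, hρker]
    have h2 := card_quotient_scalars habs hcomm
    rw [hι] at h2
    exact h2
  have hle : ρ.range ≤ ψ.ker := by
    rintro _ ⟨x, rfl⟩
    rw [MonoidHom.mem_ker]
    change hY.toSp (Subgroup.inclusion hRY x) = 1
    rw [← MonoidHom.mem_ker]
    apply hY.mem_ker_of_ind
    intro y
    refine ⟨x * y * x⁻¹, rfl, ?_⟩
    rw [Matrix.one_mulVec, C.map_mul, C.map_mul, C.φ_inv]
    abel
  have h16' : 16 ∣ Nat.card ψ.ker := by
    rw [← h16]
    exact Subgroup.card_dvd_of_le hle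
  have h3 : Nat.card (Y ⧸ (scalars ι F).subgroupOf Y) = Nat.card ψ.ker * Nat.card ψ.range := by
    rw [Subgroup.card_eq_card_quotient_mul_card_subgroup ψ.ker, mul_comm]
    congr 1
    exact Nat.card_congr (QuotientGroup.quotientKerEquivRange ψ).toEquiv
  rw [h3, show 5760 = 16 * 360 from rfl]
  exact mul_dvd_mul h16' h360

end Cfsg.Agent.H827.CF
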