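import Cfsg.Agent.H827.JFi
import Cfsg.Agent.H827.Trans
import Cfsg.Agent.H827.Bridge

/-!
# Pairs and tetrads in `AA` (helper827)

* `conj_tet` : the products of four `d p` are conjugate to `z0`;
* `pair_of_not_conj` : an involution of `AA.comap θ` not conjugate to `z` is a pair;
* `comm_iff` : `n` commutes with `d p * d q` iff `ind n` stabilizes `{p, q}`.
-/

set_option autoImplicit false

namespace Cfsg.Agent.H827.Duad

open scoped Pointwise
open Cfsg Cfsg.Spor Subgroup Cfsg.Agent.H827 Cfsg.Agent.H827.Coco Cfsg.Agent.R08 Cfsg.Agent.R08.FiTwentyFour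
open Cfsg.Agent.R08.TetTwo (IsTet)
open Cfsg.Agent.R08.TetBasic
open Cfsg.Agent.H827.CocoD (d e)
open Cfsg.Agent.CTwoTab.FiTF (z0 R0)

/-- the products of four transpositions `d p` are conjugate to `z0` -/
theorem conj_tet {x : Spor.Fi24'} {a b c u : Fi24} (h : IsTet L (x : Fi24) a b c u) : ∃ g : Spor.Fi24', g * x * g⁻¹ = z0 := by
  obtain ⟨g, hg, h1, h2, h3, h4⟩ := Trans.trans4 h (KFacts.FiTF.Tet.isTet (t := 0) (by norm_num))
  refine ⟨⟨g, hg⟩, Subtype.ext ?_⟩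
  show g * (x : Fi24) * g⁻¹ = KFacts.FiTF.Defs.z
  rw [← h.prod, ← (KFacts.FiTF.Tet.isTet (t := 0) (by norm_num)).prod, ← h1, ← h2, ← h3, ← h4]
  group

theorem isConj_tet {G : Type*} [Group G] (e0 : G ≃* Spor.Fi24') {z : G} (hz : e0 z = z0) (g : Spor.Fi24') {t : G}
    {a b c u : Fi24}
    (h : IsTet L (((e0.trans (MulAut.conj g)) t : Spor.Fi24') : Fi24) a b c u) : IsConj z t := by
  obtain ⟨k, hk⟩ := conj_tet h
  rw [isConj_iff]
  refine ⟨(e0.symm (k * g))⁻¹, ?_⟩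
  apply e0.injective
  rw [map_mul, map_mul, map_inv e0 (e0.symm (k * g))⁻¹, map_inv, hz, e0.apply_symm_apply, ← hk]
  show (k * g)⁻¹ * (k * (g * e0 t * g⁻¹) * k⁻¹) * (k * g)⁻¹⁻¹ = e0 t
  group

/-- an involution of `AA.comap θ` not conjugate to `z` is a pair -/
theorem pair_of_not_conj {G : Type*} [Group G] (e0 : G ≃* Spor.Fi24') {z : G} (hz : e0 z = z0) (g : Spor.Fi24')
    {t : G} (ht : t ∈ AA.comap (e0.trans (MulAut.conj g)).toMonoidHom) (ht1 : t ≠ 1) (hn : ¬ IsConj z t) :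
    ∃ p q : GolayPt, p ≠ q ∧ (((e0.trans (MulAut.conj g)) t : Spor.Fi24') : Fi24) = d p * d q := by
  have h1 : (e0.trans (MulAut.conj g)) t ∈ AA := ht
  rcases cases h1 with h | h | ⟨p, q, r, s, h1, h2, h3, h4, h5, h6, h⟩
  · exfalso
    apply ht1
    apply (e0.trans (MulAut.conj g)).injective
    rw [h, map_one]
  · exact h
  · exact absurd (isConj_tet e0 hz g (h ▸ isTet h1 h2 h3 h4 h5 h6)) hn

theorem pair_iff {p q : GolayPt} (hpq : p ≠ q) (m : Equiv.Perm GolayPt) :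
    d (m p) * d (m q) = d p * d q ↔ m • ({p, q} : Set GolayPt) = {p, q} := by
  have h0 : m • ({p, q} : Set GolayPt) = {m p, m q} := Set.image_pair _ _ _
  rw [h0, Set.pair_eq_pair_iff]
  constructor
  · intro h
    rcases pair_unique TetFi24A.tr (d_mem_L p) (d_mem_L q) (d_mem_L (m p)) (d_mem_L (m q)) (Coco.d_comm p q)
      (d_ne hpq) (Coco.d_comm _ _) h.symm with ⟨h1, h2⟩ | ⟨h1, h2⟩
    · exact Or.inl ⟨CocoD.d_inj h1, CocoD.d_inj h2⟩
    · exact Or.inr ⟨CocoD.d_inj h1, CocoD.d_inj h2⟩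
  · rintro (⟨h1, h2⟩ | ⟨h1, h2⟩)
    · rw [h1, h2]
    · rw [h1, h2]
      exact (Coco.d_comm q p).eq

/-- `n` commutes with `d p * d q` iff `ind n` stabilizes `{p, q}` -/
theorem comm_iff {p q : GolayPt} (hpq : p ≠ q) {x : Spor.Fi24'} (hx : (x : Fi24) = d p * d q)
    (n : ↥(normalizer (AA : Set Spor.Fi24'))) :
    (n : Spor.Fi24') * x = x * n ↔ ((ind n : M24) : Equiv.Perm GolayPt) • ({p, q} : Set GolayPt) = {p, q} := by
  rw [← pair_iff hpq, ← ind_spec, ← ind_spec, ← hx]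
  have h1 : ((n : Spor.Fi24') : Fi24) * d p * ((n : Spor.Fi24') : Fi24)⁻¹ *
      (((n : Spor.Fi24') : Fi24) * d q * ((n : Spor.Fi24') : Fi24)⁻¹) =
      ((n : Spor.Fi24') : Fi24) * (x : Fi24) * ((n : Spor.Fi24') : Fi24)⁻¹ := by
    rw [hx]
    group
  rw [h1, mul_inv_eq_iff_eq_mul]
  exact ⟨fun h => congrArg Subtype.val h, fun h => Subtype.ext h⟩

/-- an element of the normalizer moving a pair to a given one -/
theorem exists_move {p q p' q' : GolayPt} (h : p ≠ q) (h' : p' ≠ q') :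
    ∃ n ∈ normalizer (AA : Set Spor.Fi24'), (n : Fi24) * d p * (n : Fi24)⁻¹ = d p' ∧
      (n : Fi24) * d q * (n : Fi24)⁻¹ = d q' := by
  obtain ⟨m, h1, h2⟩ := KFacts.FiTTh.BasCode.exists_map_pair h h'
  obtain ⟨n, hn⟩ := CocoD.full m
  exact ⟨n, mem_normalizer_of hn, by rw [hn, h1], by rw [hn, h2]⟩

theorem comap_conj {G : Type*} [Group G] (e0 : G ≃* Spor.Fi24') (g : Spor.Fi24') {n : Spor.Fi24'}
    (hn : n ∈ normalizer (AA : Set Spor.Fi24')) :
    AA.comap (e0.trans (MulAut.conj (n * g))).toMonoidHom = AA.comap (e0.trans (MulAut.conj g)).toMonoidHom := by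
  ext x
  rw [mem_comap, mem_comap]
  show n * g * e0 x * (n * g)⁻¹ ∈ AA ↔ g * e0 x * g⁻¹ ∈ AA
  rw [mem_normalizer_iff.1 hn (g * e0 x * g⁻¹)]
  rw [show n * g * e0 x * (n * g)⁻¹ = n * (g * e0 x * g⁻¹) * n⁻¹ by group]

/-- **the centralizer of a pair in the normalizer, modulo `A`** -/
theorem quo {G : Type*} [Group G] (θ : G ≃* Spor.Fi24') {p q : GolayPt} (hpq : p ≠ q) {t : G}
    (ht : ((θ t : Spor.Fi24') : Fi24) = d p * d q) {A M : Subgroup G} (hA : A = AA.comap θ.toMonoidHom)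
    (hM : M = normalizer (A : Set G)) :
    ∃ _ : (A.subgroupOf (M ⊓ centralizer ({t} : Set G))).Normal,
      Nonempty (↥(M ⊓ centralizer ({t} : Set G)) ⧸ A.subgroupOf (M ⊓ centralizer ({t} : Set G)) ≃*
        ↥(M24 ⊓ MulAction.stabilizer (Equiv.Perm GolayPt) ({p, q} : Set GolayPt))) := by
  have hM' : ∀ x : G, x ∈ M ↔ θ x ∈ normalizer (AA : Set Spor.Fi24') := by
    intro x
    rw [hM, hA, JFi.comap_normalizer, mem_comap]
    rfl
  have hc : ∀ x : G, x ∈ centralizer ({t} : Set G) ↔ θ x * θ t = θ t * θ x := by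
    intro x
    rw [mem_centralizer_singleton_iff, ← map_mul, ← map_mul]
    exact θ.injective.eq_iff.symm
  let f0 : ↥(M ⊓ centralizer ({t} : Set G)) →* ↥(normalizer (AA : Set Spor.Fi24')) :=
    (θ.toMonoidHom.comp (M ⊓ centralizer ({t} : Set G)).subtype).codRestrict _ (fun x => (hM' x).1 x.2.1)
  have hf0 : ∀ x, ((f0 x : ↥(normalizer (AA : Set Spor.Fi24'))) : Spor.Fi24') = θ x := fun _ => rfl
  let f : ↥(M ⊓ centralizer ({t} : Set G)) →*
      ↥(M24 ⊓ MulAction.stabilizer (Equiv.Perm GolayPt) ({p, q} : Set GolayPt)) :=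
    (M24.subtype.comp (ind.comp f0)).codRestrict _ (fun x => ⟨(ind (f0 x)).2,
      MulAction.mem_stabilizer_iff.2 ((comm_iff hpq ht (f0 x)).1 ((hc x).1 x.2.2))⟩)
  have hf : ∀ x, ((f x : ↥(M24 ⊓ MulAction.stabilizer (Equiv.Perm GolayPt) ({p, q} : Set GolayPt))) :
      Equiv.Perm GolayPt) = ((ind (f0 x) : M24) : Equiv.Perm GolayPt) := fun _ => rfl
  have hs : Function.Surjective f := by
    rintro ⟨m, hm1, hm2⟩
    obtain ⟨n, hn⟩ := ind_surj ⟨m, hm1⟩
    have h1 : θ.symm (n : Spor.Fi24') ∈ M ⊓ centralizer ({t} : Set G) := by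
      refine ⟨(hM' _).2 (by rw [θ.apply_symm_apply]; exact n.2), (hc _).2 ?_⟩
      rw [θ.apply_symm_apply]
      refine (comm_iff hpq ht n).2 ?_
      rw [hn]
      exact hm2
    refine ⟨⟨_, h1⟩, Subtype.ext ?_⟩
    rw [hf]
    have h2 : f0 ⟨θ.symm (n : Spor.Fi24'), h1⟩ = n := Subtype.ext (by
      rw [hf0]
      exact θ.apply_symm_apply _)
    rw [h2, hn]
  have hk : f.ker = A.subgroupOf (M ⊓ centralizer ({t} : Set G)) := by
    ext x
    rw [MonoidHom.mem_ker, mem_subgroupOf, hA]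
    have h1 : f x = 1 ↔ ind (f0 x) = 1 := by
      constructor
      · intro h
        apply Subtype.ext
        rw [← hf, h]
        rfl
      · intro h
        apply Subtype.ext
        rw [hf, h]
        rfl
    rw [h1, ind_ker, hf0]
    rfl
  have hn : (A.subgroupOf (M ⊓ centralizer ({t} : Set G))).Normal := by
    rw [← hk]
    infer_instance
  exact ⟨hn, ⟨(QuotientGroup.quotientMulEquivOfEq hk.symm).trans
    (QuotientGroup.quotientKerEquivOfSurjective f hs)⟩⟩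

end Cfsg.Agent.H827.Duad
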