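import Cfsg.Agent.H923.Ext
import Cfsg.Agent.H827.PermEight
import Cfsg.Agent.S0256

/-!
The normaliser of a quadratic extension field in `SL₄(2) ≅ A₈` is maximal.
-/

set_option autoImplicit false
set_option linter.style.haveILetI false

namespace Cfsg.Agent.H827.ExtFour

open Module Matrix Cfsg.Geo Cfsg.Agent.H923
open scoped Matrix MatrixGroups Pointwise

variable {F : Type*} [Field F] [Fintype F]

theorem eq_one_of_ne_zero (hF : Fintype.card F = 2) : ∀ a : F, a ≠ 0 → a = 1 := by
  intro a ha
  let e : ZMod 2 ≃+* F := ZMod.ringEquivOfPrime F Nat.prime_two hF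
  have h1 : e.symm a ≠ 0 := fun h => ha (by simpa using congrArg e h)
  have h2 : e.symm a = 1 := by
    revert h1
    generalize e.symm a = b
    revert b
    decide
  simpa using congrArg e h2

theorem specialLinear_eq_top (hF : Fintype.card F = 2) : specialLinear (Fin 4) F = ⊤ := by
  rw [eq_top_iff]
  intro g _
  change Matrix.GeneralLinearGroup.det g = 1
  ext
  exact eq_one_of_ne_zero hF _ (Units.ne_zero _)

/-- `GL₄(2) ≅ A₈`. -/
theorem exists_equiv (hF : Fintype.card F = 2) :
    Nonempty (GL (Fin 4) F ≃* alternatingGroup (Fin 8)) := by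
  obtain ⟨e⟩ := Cfsg.Agent.S0256.result (F := F) hF
  have hc : Subgroup.center (Matrix.SpecialLinearGroup (Fin 4) F) = ⊥ := by
    rw [eq_bot_iff]
    intro A hA
    rw [Matrix.SpecialLinearGroup.mem_center_iff] at hA
    obtain ⟨r, hr, hA⟩ := hA
    have hr0 : r ≠ 0 := by
      rintro rfl
      simp at hr
    have hr1 := eq_one_of_ne_zero hF r hr0
    subst hr1
    rw [Subgroup.mem_bot]
    apply Subtype.ext
    rw [← hA]
    simp
  have h1 : Function.Bijective (QuotientGroup.mk' (Subgroup.center (SpecialLinearGroup (Fin 4) F))) := by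
    refine ⟨?_, QuotientGroup.mk'_surjective _⟩
    rw [← MonoidHom.ker_eq_bot_iff, QuotientGroup.ker_mk', hc]
  have h2 : Function.Bijective
      (Matrix.SpecialLinearGroup.toGL : SpecialLinearGroup (Fin 4) F →* GL (Fin 4) F) := by
    constructor
    · intro A B hAB
      apply Subtype.ext
      exact congrArg Units.val hAB
    · intro g
      have hdet : (g : Matrix (Fin 4) (Fin 4) F).det = 1 :=
        eq_one_of_ne_zero hF _ (Matrix.isUnits_det_units g).ne_zero
      exact ⟨⟨g, hdet⟩, Units.ext rfl⟩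
  exact ⟨(MulEquiv.ofBijective _ h2).symm.trans ((MulEquiv.ofBijective _ h1).trans e)⟩

/-- An element of order five commuting with a quadratic field. -/
theorem exists_five {K : Subalgebra F (Matrix (Fin 4) (Fin 4) F)} (hF : Fintype.card F = 2)
    (hK : IsFieldSubalgebra 2 K) (ω : Matrix (Fin 4) (Fin 4) F) (hω : ω ∈ K)
    (hω2 : ω * ω = ω + 1) :
    ∃ g : GL (Fin 4) F, (g : Matrix (Fin 4) (Fin 4) F) * ω = ω * (g : Matrix (Fin 4) (Fin 4) F) ∧
      g ^ 5 = 1 ∧ g ≠ 1 := by
  letI := fieldOf hK
  have hfr := finrank_mul hK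
  rw [Fintype.card_fin] at hfr
  have h2 : finrank K (Fin 4 → F) = 2 := by omega
  have h11 : (1 : F) + 1 = 0 := by
    by_contra h
    have := eq_one_of_ne_zero hF _ h
    exact one_ne_zero (add_eq_left.1 this)
  haveI hchar : CharP F 2 := CharTwo.of_one_ne_zero_of_two_eq_zero one_ne_zero
    (by rw [← one_add_one_eq_two, h11])
  have hadd : ∀ x : Fin 4 → F, x + x = 0 := by
    intro x
    ext i
    rw [Pi.add_apply, ← mul_two, ← one_add_one_eq_two, h11, mul_zero]
    rfl
  haveI : FiniteDimensional K (Fin 4 → F) := FiniteDimensional.of_finrank_pos (by omega)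
  let b : Basis (Fin 2) K (Fin 4 → F) := finBasisOfFinrankEq K _ h2
  let w : K := ⟨ω, hω⟩
  have hw : w * w = w + 1 := Subtype.ext hω2
  have hwv : ∀ x : Fin 4 → F, w • w • x = w • x + x := by
    intro x
    rw [smul_smul, hw, add_smul, one_smul]
  -- the linear map
  let T : (Fin 4 → F) →ₗ[K] (Fin 4 → F) := b.constr K ![b 0 + w • b 0 + w • b 1, b 0 + b 1]
  have hT0 : T (b 0) = b 0 + w • b 0 + w • b 1 := by
    rw [Basis.constr_basis]
    rfl
  have hT1 : T (b 1) = b 0 + b 1 := by
    rw [Basis.constr_basis]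
    rfl
  have hTT : ∀ x, T (T x) = w • T x + x := by
    have h3 : T ∘ₗ T = w • T + LinearMap.id := by
      apply b.ext
      intro i
      rw [LinearMap.comp_apply, LinearMap.add_apply, LinearMap.smul_apply, LinearMap.id_apply]
      fin_cases i
      · change T (T (b 0)) = w • T (b 0) + b 0
        simp only [hT0, map_add, map_smul, hT1, smul_add, hwv]
        have e1 := hadd (w • b 0)
        have e2 := hadd (b 0)
        have e3 := hadd (w • b 1)
        have e4 := hadd (b 1)
        generalize w • b 0 = p at *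
        generalize w • b 1 = q at *
        generalize b 0 = r at *
        generalize b 1 = s at *
        have : (r + p + q + (p + (p + r) + (q + s)) + (p + q)) = (p + (p + r) + (q + s) + r) + (((p + p) + (q + q)) - (r + r)) + (r + r) := by
          abel
        rw [this, e1, e2, e3]
        abel
      · change T (T (b 1)) = w • T (b 1) + b 1
        simp only [hT0, map_add, hT1, smul_add]
        have e2 := hadd (b 0)
        generalize w • b 0 = p at *
        generalize w • b 1 = q at *
        generalize b 0 = r at *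
        generalize b 1 = s at *
        have : r + p + q + (r + s) = (p + q + s) + (r + r) := by abel
        rw [this, e2, add_zero]
    intro x
    exact LinearMap.congr_fun h3 x
  have hT5 : ∀ x, T (T (T (T (T x)))) = x := by
    intro x
    rw [hTT (T (T (T x))), hTT (T (T x)), hTT (T x), hTT x]
    simp only [smul_add, hwv]
    generalize w • T x = p at *
    generalize w • x = q at *
    generalize T x = r at *
    ext i
    simp only [Pi.add_apply]
    linear_combination (3 * p i + 3 * r i + 2 * q i) * h11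
  have hTinj : Function.Injective T := fun x y hxy => by rw [← hT5 x, hxy, hT5]
  have hdet : LinearMap.det (T.restrictScalars F) ≠ 0 := by
    intro h0
    have := LinearMap.bot_lt_ker_of_det_eq_zero h0
    rw [bot_lt_iff_ne_bot, Ne, LinearMap.ker_eq_bot] at this
    exact this hTinj
  obtain ⟨g, -, -, hg⟩ := exists_gl_of_det hdet rfl
  have hgT : ∀ z, (g : Matrix (Fin 4) (Fin 4) F) *ᵥ z = T z := hg
  refine ⟨g, ?_, ?_, ?_⟩
  · apply Matrix.mulVec_injective
    funext z
    rw [← mulVec_mulVec, ← mulVec_mulVec, hgT, hgT]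
    exact T.map_smul w z
  · apply Units.ext
    apply Matrix.mulVec_injective
    funext z
    rw [Units.val_pow_eq_pow_val, Units.val_one, one_mulVec]
    rw [show (5 : ℕ) = 1 + 1 + 1 + 1 + 1 from rfl]
    simp only [pow_add, pow_one]
    rw [← mulVec_mulVec, ← mulVec_mulVec, ← mulVec_mulVec, ← mulVec_mulVec, hgT, hgT, hgT, hgT, hgT,
      hT5]
  · intro h1
    have h3 := hgT (b 1)
    rw [h1, Units.val_one, one_mulVec, hT1] at h3
    have h4 : b 0 = 0 := by
      have : b 0 + b 1 = 0 + b 1 := by rw [zero_add]; exact h3.symm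
      exact add_right_cancel this
    exact b.ne_zero 0 h4

/-- The elements of a quadratic field over the field of two elements. -/
theorem exists_omega {K : Subalgebra F (Matrix (Fin 4) (Fin 4) F)} (hF : Fintype.card F = 2)
    (hK : IsFieldSubalgebra 2 K) : ∃ ω ∈ K, ω * ω = ω + 1 ∧ ω ≠ 1 ∧ ω * ω * ω = 1 ∧
      ∀ k ∈ K, k = 0 ∨ k = 1 ∨ k = ω ∨ k = ω * ω := by
  classical
  letI := fieldOf hK
  have h11 : (1 : F) + 1 = 0 := by
    by_contra h
    have := eq_one_of_ne_zero hF _ h
    exact one_ne_zero (add_eq_left.1 this)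
  have hcard : Nat.card K = 4 := by
    have h1 : Nat.card K = Nat.card F ^ finrank F K := Module.natCard_eq_pow_finrank
    rw [h1, hK.finrank_eq, Nat.card_eq_fintype_card, hF]
    norm_num
  haveI : Finite K := Nat.finite_of_card_ne_zero (by omega)
  haveI := Fintype.ofFinite K
  have hcard' : Fintype.card K = 4 := by rw [← Nat.card_eq_fintype_card, hcard]
  have h11K : (1 : K) + 1 = 0 := by
    have := congrArg (algebraMap F K) h11
    simpa using this
  have hcube : ∀ x : K, x ≠ 0 → x * x * x = 1 := by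
    intro x hx
    have := FiniteField.pow_card_sub_one_eq_one x hx
    rw [hcard'] at this
    rw [← this]
    ring
  have hsq : ∀ x : K, x ≠ 0 → x ≠ 1 → x * x = x + 1 := by
    intro x hx hx1
    have h1 := hcube x hx
    have h2 : (x - 1) * (x * x + x + 1) = 0 := by linear_combination h1
    have h3 := (mul_eq_zero.1 h2).resolve_left (sub_ne_zero.2 hx1)
    linear_combination h3 - (x + 1) * h11K
  obtain ⟨ω, hω0, hω1⟩ : ∃ ω : K, ω ≠ 0 ∧ ω ≠ 1 := by
    by_contra hcon
    push Not at hcon
    have h1 : (Finset.univ : Finset K) ⊆ {0, 1} := by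
      intro x _
      by_cases hx : x = 0
      · simp [hx]
      · simp [hcon x hx]
    have h2 := Finset.card_le_card h1
    rw [Finset.card_univ, hcard'] at h2
    have h3 := Finset.card_le_two (a := (0 : K)) (b := 1)
    omega
  have hω := hsq ω hω0 hω1
  refine ⟨ω, ω.2, congrArg Subtype.val hω, fun h => hω1 (Subtype.ext h),
    congrArg Subtype.val (hcube ω hω0), ?_⟩
  intro k hk
  have h1 : (⟨k, hk⟩ : K) = 0 ∨ (⟨k, hk⟩ : K) = 1 ∨ (⟨k, hk⟩ : K) = ω ∨ (⟨k, hk⟩ : K) = ω * ω := by
    set x : K := ⟨k, hk⟩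
    by_cases hx0 : x = 0
    · exact Or.inl hx0
    by_cases hx1 : x = 1
    · exact Or.inr (Or.inl hx1)
    right; right
    have h2 := hsq x hx0 hx1
    have h3 : (x - ω) * (x - ω * ω) = 0 := by
      have h4 := hcube ω hω0
      linear_combination h2 - x * hω + h4 - (x * ω) * h11K + h11K
    rcases mul_eq_zero.1 h3 with h | h
    · exact Or.inl (sub_eq_zero.1 h)
    · exact Or.inr (sub_eq_zero.1 h)
  rcases h1 with h | h | h | h
  · exact Or.inl (congrArg Subtype.val h)
  · exact Or.inr (Or.inl (congrArg Subtype.val h))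
  · exact Or.inr (Or.inr (Or.inl (congrArg Subtype.val h)))
  · exact Or.inr (Or.inr (Or.inr (congrArg Subtype.val h)))

/-- **The normaliser of a quadratic field in `SL₄(2)` is maximal.** -/
theorem ext_isMaximalIn {K : Subalgebra F (Matrix (Fin 4) (Fin 4) F)} (hF : Fintype.card F = 2)
    (hK : IsFieldSubalgebra 2 K) :
    IsMaximalIn (specialLinear (Fin 4) F) (subalgebraNormalizer K ⊓ specialLinear (Fin 4) F) := by
  obtain ⟨ω, hω, hω2, hω1, hω3, hKel⟩ := exists_omega hF hK
  obtain ⟨s, hsω, hs5, hs1⟩ := exists_five hF hK ω hω hω2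
  obtain ⟨φ⟩ := exists_equiv hF
  -- the unit
  let u : GL (Fin 4) F := ⟨ω, ω * ω, by rw [← mul_assoc, hω3], hω3⟩
  have hu : (u : Matrix (Fin 4) (Fin 4) F) = ω := rfl
  have hui : ((u⁻¹ : GL (Fin 4) F) : Matrix (Fin 4) (Fin 4) F) = ω * ω := rfl
  have hu3 : u ^ 3 = 1 := by
    apply Units.ext
    rw [Units.val_pow_eq_pow_val, hu, Units.val_one, pow_succ, pow_two, hω3]
  have hu1 : u ≠ 1 := fun h => hω1 (congrArg Units.val h)
  have hus : u * s = s * u := by
    apply Units.ext
    rw [Units.val_mul, Units.val_mul, hu, hsω]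
  -- the normaliser
  have hN : ∀ g : GL (Fin 4) F, g ∈ subalgebraNormalizer K ↔ (g * u * g⁻¹ = u ∨ g * u * g⁻¹ = u⁻¹) := by
    intro g
    have hgu : ((g * u * g⁻¹ : GL (Fin 4) F) : Matrix (Fin 4) (Fin 4) F) =
        (g : Matrix (Fin 4) (Fin 4) F) * ω * ((g⁻¹ : GL (Fin 4) F) : Matrix (Fin 4) (Fin 4) F) := rfl
    constructor
    · intro hg
      have h1 := (hg ω).1 hω
      rw [← hgu] at h1
      rcases hKel _ h1 with h | h | h | h
      · exfalso
        have := (g * u * g⁻¹ : GL (Fin 4) F).isUnit
        rw [h] at this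
        exact not_isUnit_zero this
      · exfalso
        have h2 : g * u * g⁻¹ = 1 := Units.ext h
        rw [conj_eq_one_iff] at h2
        exact hu1 h2
      · exact Or.inl (Units.ext h)
      · exact Or.inr (Units.ext (h.trans hui.symm))
    · intro hg
      have hmem : ∀ k ∈ K, (g : Matrix (Fin 4) (Fin 4) F) * k *
          ((g⁻¹ : GL (Fin 4) F) : Matrix (Fin 4) (Fin 4) F) ∈ K := by
        have hωm : (g : Matrix (Fin 4) (Fin 4) F) * ω *
            ((g⁻¹ : GL (Fin 4) F) : Matrix (Fin 4) (Fin 4) F) ∈ K := by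
          rw [← hgu]
          rcases hg with h | h
          · rw [h]
            exact hω
          · rw [h, hui]
            exact K.mul_mem hω hω
        intro k hk
        rcases hKel k hk with rfl | rfl | rfl | rfl
        · rw [mul_zero, zero_mul]
          exact K.zero_mem
        · rw [mul_one, ← Units.val_mul, mul_inv_cancel, Units.val_one]
          exact K.one_mem
        · exact hωm
        · have h1 : (g : Matrix (Fin 4) (Fin 4) F) * (ω * ω) *
              ((g⁻¹ : GL (Fin 4) F) : Matrix (Fin 4) (Fin 4) F) =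
              ((g : Matrix (Fin 4) (Fin 4) F) * ω * ((g⁻¹ : GL (Fin 4) F) : Matrix (Fin 4) (Fin 4) F)) *
              ((g : Matrix (Fin 4) (Fin 4) F) * ω * ((g⁻¹ : GL (Fin 4) F) : Matrix (Fin 4) (Fin 4) F)) := by
            have h2 : ((g⁻¹ : GL (Fin 4) F) : Matrix (Fin 4) (Fin 4) F) * (g : Matrix (Fin 4) (Fin 4) F) = 1 := by
              rw [← Units.val_mul, inv_mul_cancel, Units.val_one]
            calc _ = (g : Matrix (Fin 4) (Fin 4) F) * ω * 1 * ω *
                ((g⁻¹ : GL (Fin 4) F) : Matrix (Fin 4) (Fin 4) F) := by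
                  rw [mul_one, mul_assoc (g : Matrix (Fin 4) (Fin 4) F) ω ω]
              _ = _ := by
                  rw [← h2]
                  simp only [mul_assoc]
          rw [h1]
          exact K.mul_mem hωm hωm
      haveI : Finite K := Module.finite_of_finite F
      let f : K → K := fun k => ⟨_, hmem k k.2⟩
      have hf : Function.Injective f := by
        intro a b hab
        have h1 : (g : Matrix (Fin 4) (Fin 4) F) * a * ((g⁻¹ : GL (Fin 4) F) : Matrix (Fin 4) (Fin 4) F) =
          (g : Matrix (Fin 4) (Fin 4) F) * b * ((g⁻¹ : GL (Fin 4) F) : Matrix (Fin 4) (Fin 4) F) :=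
          congrArg Subtype.val hab
        exact Subtype.ext ((Units.mul_right_inj g).1 ((Units.mul_left_inj g⁻¹).1 h1))
      intro k
      refine ⟨hmem k, fun hk => ?_⟩
      obtain ⟨k', hk'⟩ := (Finite.injective_iff_surjective.1 hf) ⟨_, hk⟩
      have h1 : (g : Matrix (Fin 4) (Fin 4) F) * k' * ((g⁻¹ : GL (Fin 4) F) : Matrix (Fin 4) (Fin 4) F) =
        (g : Matrix (Fin 4) (Fin 4) F) * k * ((g⁻¹ : GL (Fin 4) F) : Matrix (Fin 4) (Fin 4) F) :=
        congrArg Subtype.val hk'
      rw [← (Units.mul_right_inj g).1 ((Units.mul_left_inj g⁻¹).1 h1)]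
      exact k'.2
  -- transport
  let t : Equiv.Perm (Fin 8) := (φ u : alternatingGroup (Fin 8))
  have hcoe : ∀ g : GL (Fin 4) F, ((φ g : alternatingGroup (Fin 8)) : Equiv.Perm (Fin 8)) = 1 → g = 1 := by
    intro g hg
    have h1 : φ g = 1 := Subtype.ext hg
    exact φ.injective (by rw [h1, map_one])
  have ht3 : t ^ 3 = 1 := by
    change ((φ u : alternatingGroup (Fin 8)) : Equiv.Perm (Fin 8)) ^ 3 = 1
    rw [← Subgroup.coe_pow, ← map_pow, hu3, map_one, Subgroup.coe_one]
  have hc3 : t.support.card = 3 := by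
    refine PermEight.support_card (s := ((φ s : alternatingGroup (Fin 8)) : Equiv.Perm (Fin 8))) ht3
      (fun h => hu1 (hcoe u h)) ?_ (fun h => hs1 (hcoe s h)) ?_
    · rw [← Subgroup.coe_pow, ← map_pow, hs5, map_one, Subgroup.coe_one]
    · change ((φ u : alternatingGroup (Fin 8)) : Equiv.Perm (Fin 8)) * _ = _ * ((φ u : alternatingGroup (Fin 8)) : Equiv.Perm (Fin 8))
      rw [← Subgroup.coe_mul, ← Subgroup.coe_mul, ← map_mul, ← map_mul, hus]
  have hst := PermEight.isCoatom_stab hc3
  have hNs : subalgebraNormalizer K = (MulAction.stabilizer (alternatingGroup (Fin 8))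
      ((t.support : Finset (Fin 8)) : Set (Fin 8))).comap (φ : GL (Fin 4) F →* alternatingGroup (Fin 8)) := by
    ext g
    rw [Subgroup.mem_comap, PermEight.mem_stab_iff ht3 hc3, hN g]
    have h1 : ∀ x y : GL (Fin 4) F, ((φ x : alternatingGroup (Fin 8)) : Equiv.Perm (Fin 8)) = φ y ↔ x = y :=
      fun x y => ⟨fun h => φ.injective (Subtype.ext h), fun h => by rw [h]⟩
    rw [← h1, ← h1]
    simp only [map_mul, map_inv, Subgroup.coe_mul, Subgroup.coe_inv]
    rfl
  have hco : IsCoatom (subalgebraNormalizer K) := by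
    rw [hNs]
    have h1 : (MulAction.stabilizer (alternatingGroup (Fin 8))
      ((t.support : Finset (Fin 8)) : Set (Fin 8))).comap (φ : GL (Fin 4) F →* alternatingGroup (Fin 8)) =
      (φ.comapSubgroup) (MulAction.stabilizer (alternatingGroup (Fin 8))
      ((t.support : Finset (Fin 8)) : Set (Fin 8))) := rfl
    rw [h1, OrderIso.isCoatom_iff]
    exact hst
  rw [specialLinear_eq_top hF, inf_top_eq]
  refine ⟨lt_top_iff_ne_top.2 hco.1, fun M hM _ => ?_⟩
  rcases hco.le_iff.1 hM with h | h
  · exact Or.inr h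
  · exact Or.inl h

end Cfsg.Agent.H827.ExtFour
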