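import Cfsg.Agent.H871.MonoSL

/-!
Overgroups of the monomial group of `SL_4(q)`, `q ≥ 7`.
-/

set_option autoImplicit false
set_option linter.unusedSectionVars false

namespace Cfsg.Agent.H827.MonoFour

open Matrix Cfsg.Agent.H873 Cfsg.Agent.H871

variable {ι : Type} [Fintype ι] [DecidableEq ι] {F : Type*} [Field F]

theorem exists_sq_ne {K : Type*} [Field K] (h5 : 5 ≤ Nat.card K) : ∃ θ : Kˣ, θ * θ ≠ 1 := by
  obtain ⟨s, -, -, ⟨h0, h1, h2⟩, -⟩ := exists_two_values h5 0 1 (-1)
  refine ⟨Units.mk0 s h0, fun h => ?_⟩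
  have h3 := congrArg Units.val h
  rw [Units.val_mul, Units.val_mk0, Units.val_one] at h3
  rcases mul_self_eq_one_iff.1 h3 with h4 | h4
  · exact h1 h4
  · exact h2 h4

/-- **Overgroups of the full monomial group of `GL`**, at least three coordinates. -/
theorem gl_monomial_three {X : Subgroup (GL ι F)} (hX : HasAllMon X) (h5 : 5 ≤ Nat.card F)
    (h3 : 3 ≤ Fintype.card ι) : (∀ g ∈ X, IsMon g) ∨ Cfsg.Geo.specialLinear ι F ≤ X := by
  have hnt : Nontrivial ι := Fintype.one_lt_card_iff_nontrivial.1 (by omega)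
  obtain ⟨θ, hθ⟩ := exists_sq_ne h5
  have hθ1 : θ ≠ 1 := by
    rintro rfl
    exact hθ (one_mul _)
  by_cases hP : NoCentre X
  · exact Or.inl (all_mon_of_noCentre hX hP h5 hθ h3)
  right
  unfold NoCentre at hP
  push Not at hP
  obtain ⟨i, φ, hφ, hφ0⟩ := hP
  have hi : φ i = 0 := by
    have := hφ.1
    rwa [dotProduct_single, mul_one] at this
  obtain ⟨j, hj⟩ : ∃ j, φ j ≠ 0 := by
    by_contra hc
    push Not at hc
    exact hφ0 (funext hc)
  have hij : i ≠ j := by
    rintro rfl
    exact hj hi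
  have h1 := hφ.conj (hX 1 (fun k => if k = j then θ else 1))
  rw [mn_mulVec, vecMul_mn_inv] at h1
  have e1 : (fun k => (((if k = j then θ else 1 : Fˣ)) : F) *
      (Pi.single i (1 : F) : ι → F) ((1 : Equiv.Perm ι) k)) = Pi.single i 1 := by
    funext k
    by_cases hk : k = i
    · subst hk
      simp [hij]
    · simp [hk]
  rw [e1] at h1
  have h2 : HasTv X (Pi.single i 1) (-φ) := by
    have h3 := hφ.neg_left
    have h4 : -(Pi.single i (1 : F) : ι → F) = (-1 : F) • Pi.single i 1 := by rw [neg_one_smul]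
    rw [h4, hasTv_smul_comm, neg_one_smul] at h3
    exact h3
  have hne1 : ((θ⁻¹ : Fˣ) : F) - 1 ≠ 0 := by
    intro h0
    apply hθ1
    rw [sub_eq_zero] at h0
    rw [← inv_eq_one]
    exact Units.ext h0
  refine top_of_root (fun σ d _ => hX σ d) h3 hij (mul_ne_zero hne1 hj) ?_
  convert h1.add_right h2 using 1
  funext k
  by_cases hk : k = j
  · subst hk
    simp
    ring
  · simp [hk]

/-- **A non-monomial element fixing a coordinate line** gives the whole of `SL_4`. -/
theorem top_of_fix [Nontrivial ι] {M : Subgroup (GL ι F)} (hM : HasMon M)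
    (hMS : M ≤ Cfsg.Geo.specialLinear ι F) (hF : 5 ≤ Nat.card F) (hι : Fintype.card ι = 4)
    {g : GL ι F} (hg : g ∈ M) (hmon : ¬ IsMon g) {o : ι}
    (hcol : ∀ i, i ≠ o → (g : Matrix ι ι F) i o = 0) :
    Cfsg.Geo.specialLinear ι F ≤ M := by
  classical
  obtain ⟨θ, hθθ⟩ := exists_sq_ne hF
  have hθ : θ ≠ 1 := by
    rintro rfl
    exact hθθ (one_mul _)
  have hcard : 3 ≤ Fintype.card {i : ι // i ≠ o} := by
    rw [Fintype.card_subtype_compl, Fintype.card_subtype_eq]
    omega
  -- transvections with centre `e_o`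
  have hcentre : ∀ h : GL ι F, h ∈ M → (∀ i, i ≠ o → ∀ j, (h : Matrix ι ι F) i j =
      if i = j then 1 else 0) → h ≠ 1 → Cfsg.Geo.specialLinear ι F ≤ M := by
    intro h hh hrow hne
    set φ : ι → F := fun k => (h : Matrix ι ι F) o k - if o = k then 1 else 0 with hφ
    have hmat : (h : Matrix ι ι F) = 1 + vecMulVec (Pi.single o 1) φ := by
      ext i j
      rw [Matrix.add_apply, Matrix.one_apply, vecMulVec_apply, Pi.single_apply]
      by_cases hi : i = o
      · subst hi
        simp [hφ]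
      · rw [hrow i hi j, if_neg hi, zero_mul, add_zero]
    have hdet := (mem_specialLinear_iff h).1 (hMS hh)
    rw [hmat, vecMulVec_eq Unit, det_one_add_replicateCol_mul_replicateRow] at hdet
    have h0 : φ ⬝ᵥ Pi.single o 1 = 0 := by
      have : (1 : F) + φ ⬝ᵥ Pi.single o 1 = 1 + 0 := by rw [hdet, add_zero]
      exact add_left_cancel this
    refine top_of_centre hM (by omega) ⟨θ, hθ⟩ (i := o) (φ := φ) ?_ ⟨h0, h, hh, hmat⟩
    intro hφ0
    apply hne
    apply Units.ext
    rw [hmat, hφ0, vecMulVec_zero, add_zero, Units.val_one]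
  rcases gl_monomial_three (resGroup_hasAllMon hM o) hF hcard with hall | hSL
  · -- the induced element is monomial
    obtain ⟨σ, d, hx⟩ := (isMon_iff _).1 (hall _ ⟨g, hg, lift_res o g hcol⟩)
    obtain ⟨τ, e, h1, h2⟩ := exists_lift_mn o σ d
    have h3 : Lift o ((mn τ e)⁻¹ * g) 1 := by
      have := h2.inv.mul (lift_res o g hcol)
      rwa [hx, inv_mul_cancel] at this
    refine hcentre ((mn τ e)⁻¹ * g) (M.mul_mem (M.inv_mem (hM τ e h1)) hg) ?_ ?_
    · intro i hi j
      by_cases hj : j = o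
      · subst hj
        rw [h3.1 i hi, if_neg hi]
      · have := h3.2 ⟨i, hi⟩ ⟨j, hj⟩
        rw [← this, Units.val_one, Matrix.one_apply]
        simp [Subtype.ext_iff]
    · intro h4
      apply hmon
      rw [inv_mul_eq_one] at h4
      rw [← h4]
      exact isMon_mn _ _
  · -- three distinct coordinates different from `o`
    obtain ⟨⟨a, hao⟩, ⟨b, hbo⟩, ⟨c, hco⟩, -, -, -, hab', hac', hbc'⟩ := Finset.two_lt_card_iff.1
      (show 2 < (Finset.univ : Finset {i : ι // i ≠ o}).card by rw [Finset.card_univ]; omega)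
    have hab : a ≠ b := fun h => hab' (Subtype.ext h)
    have hac : a ≠ c := fun h => hac' (Subtype.ext h)
    have hbc : b ≠ c := fun h => hbc' (Subtype.ext h)
    have hlift : ∀ {p r : {i : ι // i ≠ o}} (hpr : p ≠ r),
        ∃ g ∈ M, Lift o g (tv (Pi.single p 1) (Pi.single r 1) (by simp [hpr])) := by
      intro p r hpr
      exact hSL (tv_mem_specialLinear _ _ (by simp [hpr]))
    obtain ⟨g₁, hg₁, hl₁⟩ := hlift (p := ⟨a, hao⟩) (r := ⟨c, hco⟩) hac'
    obtain ⟨g₂, hg₂, hl₂⟩ := hlift (p := ⟨c, hco⟩) (r := ⟨b, hbo⟩) hbc'.symm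
    set x : GL ι F := g₁ * g₂ * g₁⁻¹ * g₂⁻¹ with hx
    have hxM : x ∈ M := M.mul_mem (M.mul_mem (M.mul_mem hg₁ hg₂) (M.inv_mem hg₁)) (M.inv_mem hg₂)
    have hxl := ((hl₁.mul hl₂).mul hl₁.inv).mul hl₂.inv
    rw [← hx] at hxl
    -- the commutator of the two transvections
    have hcomm : ∀ (i j : {i : ι // i ≠ o}), (x : Matrix ι ι F) i j =
        (1 + vecMulVec (Pi.single (⟨a, hao⟩ : {i : ι // i ≠ o}) 1) (Pi.single ⟨b, hbo⟩ 1) :
          Matrix _ _ F) i j := by
      intro i j
      rw [← hxl.2 i j]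
      congr 2
      -- an identity of matrices
      have e1 : (tv (Pi.single (⟨a, hao⟩ : {i : ι // i ≠ o}) (1 : F)) (Pi.single ⟨c, hco⟩ 1)
          (by simp [hac'])) * tv (Pi.single ⟨c, hco⟩ 1) (Pi.single ⟨b, hbo⟩ 1)
          (by simp [hbc'.symm]) =
          (tv (Pi.single (⟨a, hao⟩ : {i : ι // i ≠ o}) (1 : F)) (Pi.single ⟨b, hbo⟩ 1)
          (by simp [hab'])) * (tv (Pi.single ⟨c, hco⟩ 1) (Pi.single ⟨b, hbo⟩ 1)
          (by simp [hbc'.symm]) * tv (Pi.single (⟨a, hao⟩ : {i : ι // i ≠ o}) (1 : F))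
            (Pi.single ⟨c, hco⟩ 1) (by simp [hac'])) := by
        apply gl_ext
        intro v
        rw [Units.val_mul, Units.val_mul, Units.val_mul]
        simp only [← mulVec_mulVec, tv_mulVec, dotProduct_add, dotProduct_smul, single_dotProduct,
          one_mul, Pi.single_apply, if_neg hac', if_neg hab', if_neg hbc', if_neg hac'.symm,
          if_neg hab'.symm, if_neg hbc'.symm, smul_eq_mul, mul_zero, add_zero, if_true, mul_one,
          add_smul]
        abel
      have e2 : (tv (Pi.single (⟨a, hao⟩ : {i : ι // i ≠ o}) (1 : F)) (Pi.single ⟨c, hco⟩ 1)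
          (by simp [hac'])) * tv (Pi.single ⟨c, hco⟩ 1) (Pi.single ⟨b, hbo⟩ 1)
          (by simp [hbc'.symm]) * (tv (Pi.single (⟨a, hao⟩ : {i : ι // i ≠ o}) (1 : F))
            (Pi.single ⟨c, hco⟩ 1) (by simp [hac']))⁻¹ * (tv (Pi.single ⟨c, hco⟩ 1)
            (Pi.single ⟨b, hbo⟩ 1) (by simp [hbc'.symm]))⁻¹ =
          (tv (Pi.single (⟨a, hao⟩ : {i : ι // i ≠ o}) (1 : F)) (Pi.single ⟨b, hbo⟩ 1)
          (by simp [hab'])) := by
        rw [e1]
        group
      rw [e2]
      rfl
    -- the column of `e_o`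
    have hxo : (x : Matrix ι ι F) *ᵥ Pi.single o 1 = Pi.single o 1 := by
      have hfix : ∀ {g : GL ι F} {y : GL {i : ι // i ≠ o} F}, Lift o g y →
          (g : Matrix ι ι F) *ᵥ Pi.single o 1 = (g : Matrix ι ι F) o o • Pi.single o 1 := by
        intro g y hy
        rw [col_eq]
        exact eq_smul_single hy.1
      have h1 := hfix hl₁
      have h2 := hfix hl₂
      have h1' := fix_ne_zero h1
      have h2' := fix_ne_zero h2
      have hinv : ∀ {g : GL ι F} {c : F}, c ≠ 0 → (g : Matrix ι ι F) *ᵥ Pi.single o 1 =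
          c • Pi.single o 1 → ((g⁻¹ : GL ι F) : Matrix ι ι F) *ᵥ Pi.single o 1 =
          c⁻¹ • Pi.single o 1 := by
        intro g c hc hg
        have h := inv_mulVec_mulVec g (Pi.single o 1)
        rw [hg, mulVec_smul] at h
        calc ((g⁻¹ : GL ι F) : Matrix ι ι F) *ᵥ Pi.single o 1
            = c⁻¹ • (c • (((g⁻¹ : GL ι F) : Matrix ι ι F) *ᵥ Pi.single o 1)) := by
              rw [smul_smul, inv_mul_cancel₀ hc, one_smul]
          _ = _ := by rw [h]
      have e3 := hinv h2' h2
      have e4 := hinv h1' h1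
      rw [hx]
      simp only [Units.val_mul, ← mulVec_mulVec, mulVec_smul, e3, e4, h1, h2, smul_smul]
      rw [show ((g₂ : Matrix ι ι F) o o)⁻¹ * (((g₁ : Matrix ι ι F) o o)⁻¹ *
        ((g₂ : Matrix ι ι F) o o * (g₁ : Matrix ι ι F) o o)) = 1 by field_simp, one_smul]
    set ψ : ι → F := fun k => (x : Matrix ι ι F) o k - if o = k then 1 else 0 with hψ
    have hψo : ψ o = 0 := by
      rw [hψ]
      have := congrFun hxo o
      rw [entry_eq] at this
      simp [this]
    have hxmat : (x : Matrix ι ι F) =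
        1 + vecMulVec (Pi.single a 1) (Pi.single b 1) + vecMulVec (Pi.single o 1) ψ := by
      ext i j
      rw [Matrix.add_apply, Matrix.add_apply, Matrix.one_apply, vecMulVec_apply, vecMulVec_apply,
        Pi.single_apply, Pi.single_apply, Pi.single_apply]
      by_cases hi : i = o
      · subst hi
        rw [if_neg hao.symm, if_pos rfl]
        simp [hψ]
      · by_cases hj : j = o
        · subst hj
          rw [← entry_eq (x : Matrix ι ι F) i j, hxo, Pi.single_apply]
          simp [hi, hbo.symm]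
        · have := hcomm ⟨i, hi⟩ ⟨j, hj⟩
          rw [this, Matrix.add_apply, Matrix.one_apply, vecMulVec_apply, Pi.single_apply,
            Pi.single_apply]
          simp [Subtype.ext_iff, hi]
    by_cases hψ0 : ψ = 0
    · -- `x` is a root element
      refine top_of_root hM (by omega) hab (one_ne_zero (α := F)) ⟨by simp [hab], x, hxM, ?_⟩
      rw [hxmat, hψ0, vecMulVec_zero, add_zero, one_smul]
    · -- conjugating by a diagonal element
      obtain ⟨k, hk⟩ : ∃ k, ψ k ≠ 0 := by
        by_contra hc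
        push Not at hc
        exact hψ0 (funext hc)
      have hko : k ≠ o := by
        rintro rfl
        exact hk hψo
      obtain ⟨d, hd1, hdo, hdab, hdk⟩ : ∃ d : ι → Fˣ, ∏ i, d i = 1 ∧ d o = 1 ∧ d a = d b ∧
          d k ≠ 1 := by
        refine ⟨fun i => if i = a then θ else if i = b then θ else if i = c then (θ * θ)⁻¹ else 1,
          ?_, ?_, ?_, ?_⟩
        · rw [← Finset.prod_subset (Finset.subset_univ {a, b, c})]
          · rw [Finset.prod_insert (by simp [hab, hac]), Finset.prod_insert (by simp [hbc]),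
              Finset.prod_singleton]
            simp [hab.symm, hac.symm, hbc.symm]
          · intro i _ hi
            simp only [Finset.mem_insert, Finset.mem_singleton, not_or] at hi
            rw [if_neg hi.1, if_neg hi.2.1, if_neg hi.2.2]
        · simp [hao.symm, hbo.symm, hco.symm]
        · simp [hab.symm]
        · by_cases hka : k = a
          · simp [hka, hθ]
          by_cases hkb : k = b
          · simp [hkb, hθ]
          have hkc : k = c := by
            by_contra hkc
            have h1 : ({o, a, b, c, k} : Finset ι).card = 5 := by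
              rw [Finset.card_insert_of_notMem, Finset.card_insert_of_notMem,
                Finset.card_insert_of_notMem, Finset.card_pair (Ne.symm hkc)]
              · simp [hbc, Ne.symm hkb]
              · simp [hab, hac, Ne.symm hka]
              · simp [hao.symm, hbo.symm, hco.symm, hko.symm]
            have h2 := Finset.card_le_univ ({o, a, b, c, k} : Finset ι)
            omega
          simp only [hkc, if_neg hac.symm, if_neg hbc.symm, if_true]
          rw [Ne, inv_eq_one]
          exact hθθ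
      have hdM : mn 1 d ∈ M := hM.diag d hd1
      refine hcentre (mn 1 d * x * (mn 1 d)⁻¹ * x⁻¹)
        (M.mul_mem (M.mul_mem (M.mul_mem hdM hxM) (M.inv_mem hdM)) (M.inv_mem hxM)) ?_ ?_
      · -- rows different from `o`
        have hrow : ∀ i, i ≠ o → ∀ j, ((mn 1 d * x * (mn 1 d)⁻¹ : GL ι F) : Matrix ι ι F) i j =
            (x : Matrix ι ι F) i j := by
          intro i hi j
          rw [conj_diag_apply, hxmat, Matrix.add_apply, Matrix.add_apply,
            Matrix.one_apply, vecMulVec_apply, vecMulVec_apply, Pi.single_apply, Pi.single_apply,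
            Pi.single_apply, if_neg hi, zero_mul, add_zero]
          by_cases hia : i = a
          · subst hia
            by_cases hjb : j = b
            · subst hjb
              simp [hab, hdab]
            · by_cases hij : i = j
              · subst hij
                simp [hjb]
              · simp [hjb, hij]
          · by_cases hij : i = j
            · subst hij
              simp [hia]
            · simp [hia, hij]
        intro i hi j
        have h1 : ((mn 1 d * x * (mn 1 d)⁻¹ * x⁻¹ : GL ι F) : Matrix ι ι F) i j =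
            ((x * x⁻¹ : GL ι F) : Matrix ι ι F) i j := by
          rw [Units.val_mul _ (x⁻¹), Units.val_mul x, Matrix.mul_apply, Matrix.mul_apply]
          exact Finset.sum_congr rfl fun k _ => by rw [hrow i hi k]
        rw [h1, mul_inv_cancel, Units.val_one, Matrix.one_apply]
      · intro h1
        rw [mul_inv_eq_one] at h1
        have h2 : ((mn 1 d * x * (mn 1 d)⁻¹ : GL ι F) : Matrix ι ι F) o k =
            (x : Matrix ι ι F) o k := by rw [h1]
        rw [conj_diag_apply, hdo, Units.val_one, one_mul] at h2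
        have h3 : (x : Matrix ι ι F) o k = ψ k := by
          rw [hψ]
          simp [hko.symm]
        rw [h3] at h2
        apply hdk
        have h4 : (((d k)⁻¹ : Fˣ) : F) = 1 := by
          exact mul_left_cancel₀ hk (h2.trans (mul_one _).symm)
        rw [← inv_eq_one]
        exact Units.ext h4

theorem noFix_of {M : Subgroup (GL ι F)} (hM : HasMon M)
    (hMS : M ≤ Cfsg.Geo.specialLinear ι F) (hF : 5 ≤ Nat.card F) (hι : Fintype.card ι = 4)
    (hne : ¬ Cfsg.Geo.specialLinear ι F ≤ M) : NoFix M := by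
  have : Nontrivial ι := Fintype.one_lt_card_iff_nontrivial.1 (by omega)
  have key : ∀ g ∈ M, ∀ o, (∀ k, k ≠ o → (g : Matrix ι ι F) k o = 0) → IsMon g := by
    intro g hg o ho
    by_contra hcon
    exact hne (top_of_fix hM hMS hF hι hg hcon ho)
  intro g hg i j h
  obtain ⟨l, hli, hlj⟩ := exists_ne_two (by omega : 3 ≤ Fintype.card ι) i j
  set τ := Equiv.swap i j with hτ
  set d : ι → Fˣ := fun k => if k = l then sgn F τ else 1 with hd
  have hm : mn τ d ∈ M := hM τ d (by
    rw [hd, Finset.prod_ite_eq' Finset.univ l, if_pos (Finset.mem_univ _)]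
    apply Units.ext
    rw [Units.val_mul, coe_sgn, Units.val_one]
    exact sign_mul_self τ)
  apply isMon_of_mul_left (isMon_mn τ d)
  apply key _ (M.mul_mem hm hg) j
  intro k hk
  rw [mn_mul_apply, h (τ k), mul_zero]
  intro h1
  apply hk
  rw [hτ, Equiv.swap_apply_eq_iff, Equiv.swap_apply_left] at h1
  exact h1

/-- The column of a conjugate of a diagonal matrix, entrywise. -/
theorem conj_entry (g : GL ι F) (d : ι → Fˣ) (p o : ι) :
    ((g⁻¹ * mn 1 d * g : GL ι F) : Matrix ι ι F) p o =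
      ∑ a, ((g⁻¹ : GL ι F) : Matrix ι ι F) p a * (d a : F) * (g : Matrix ι ι F) a o := by
  rw [← entry_eq ((g⁻¹ * mn 1 d * g : GL ι F) : Matrix ι ι F) p o, Units.val_mul, Units.val_mul,
    ← mulVec_mulVec, ← mulVec_mulVec, mn_mulVec, Matrix.mulVec, dotProduct]
  refine Finset.sum_congr rfl fun a _ => ?_
  rw [Equiv.Perm.one_apply, entry_eq]
  ring

/-- **No zero entries** in a non-monomial element. -/
theorem nonzero {M : Subgroup (GL ι F)} (hM : HasMon M) (hN : NoFix M)
    (hF : 7 ≤ Nat.card F) (hι : Fintype.card ι = 4) {g : GL ι F} (hg : g ∈ M) (hmon : ¬ IsMon g) :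
    ∀ i j, (g : Matrix ι ι F) i j ≠ 0 := by
  classical
  obtain ⟨θ, h2, h3, h4⟩ := exists_theta (by omega : 5 ≤ Nat.card F)
  have h4 := h4 hF
  intro k o hk
  have hginv : ¬ IsMon g⁻¹ := fun h => hmon (by have := h.inv; rwa [inv_inv] at this)
  set A := ((g⁻¹ : GL ι F) : Matrix ι ι F) with hA
  set d : ι → Fˣ := fun i => θ * (if i = k then (θ * θ * (θ * θ))⁻¹ else 1) with hd
  have hd1 : ∏ i, d i = 1 := by
    rw [hd, Finset.prod_mul_distrib, Finset.prod_ite_eq' Finset.univ k, if_pos (Finset.mem_univ _),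
      Finset.prod_const, Finset.card_univ, hι]
    rw [show θ ^ 4 = θ * θ * (θ * θ) by
      rw [show (4 : ℕ) = 2 + 2 from rfl, pow_add, pow_two], mul_inv_cancel]
  set y : GL ι F := g⁻¹ * mn 1 d * g with hy
  have hyM : y ∈ M := M.mul_mem (M.mul_mem (M.inv_mem hg) (hM.diag d hd1)) hg
  -- the entries of `y`
  have hAg : ∀ p j, ∑ a, A p a * (g : Matrix ι ι F) a j = if p = j then 1 else 0 := by
    intro p j
    rw [← Matrix.mul_apply, hA, ← Units.val_mul, inv_mul_cancel, Units.val_one, Matrix.one_apply]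
  set c : F := (((θ * θ * (θ * θ))⁻¹ : Fˣ) : F) with hc
  have hyent : ∀ p j, (y : Matrix ι ι F) p j = (θ : F) * ((if p = j then 1 else 0) +
      (c - 1) * (A p k * (g : Matrix ι ι F) k j)) := by
    intro p j
    rw [hy, conj_entry, ← hAg p j]
    have h5 : ∀ a, A p a * (d a : F) * (g : Matrix ι ι F) a j =
        (θ : F) * (A p a * (g : Matrix ι ι F) a j) + (θ : F) * ((c - 1) *
          (if a = k then A p a * (g : Matrix ι ι F) a j else 0)) := by
      intro a
      by_cases ha : a = k
      · rw [if_pos ha]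
        simp only [hd, if_pos ha, Units.val_mul, ← hc]
        ring
      · rw [if_neg ha]
        simp only [hd, if_neg ha, mul_one]
        ring
    rw [Finset.sum_congr rfl fun a _ => h5 a, Finset.sum_add_distrib, ← Finset.mul_sum,
      ← Finset.mul_sum, ← Finset.mul_sum, Finset.sum_ite_eq' Finset.univ k,
      if_pos (Finset.mem_univ _)]
    ring
  have hc1 : c - 1 ≠ 0 := by
    intro h0
    apply h4
    have h5 : (θ * θ * (θ * θ))⁻¹ = (1 : Fˣ) := Units.ext (by rw [Units.val_one]; exact sub_eq_zero.1 h0)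
    rw [inv_eq_one] at h5
    have := congrArg Units.val h5
    simpa using this
  have hymon : IsMon y := by
    apply hN y hyM o o
    intro i hi
    rw [hyent, if_neg hi, hk]
    ring
  -- a nonzero entry in the row `k`
  obtain ⟨j, hj⟩ := exists_row_ne_zero g k
  obtain ⟨i₀, hi₀⟩ := hymon j
  have hzero : ∀ i, i ≠ j → i ≠ i₀ → A i k = 0 := by
    intro i hij hi
    have h5 := hi₀ i hi
    rw [hyent, if_neg hij, zero_add] at h5
    have h6 := (mul_eq_zero.1 h5).resolve_left θ.ne_zero
    have h7 := (mul_eq_zero.1 h6).resolve_left hc1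
    exact (mul_eq_zero.1 h7).resolve_right hj
  obtain ⟨a, haj, hai, -⟩ := exists_ne_three (by omega : 4 ≤ Fintype.card ι) j i₀ i₀
  obtain ⟨b, hbj, hbi, hba⟩ := exists_ne_three (by omega : 4 ≤ Fintype.card ι) j i₀ a
  have h5 := zeros_le_one hM hN h2 h3 h4 (M.inv_mem hg) hginv k
  have h6 : ({a, b} : Finset ι) ⊆ zs fun i => A i k := by
    intro i hi
    rw [Finset.mem_insert, Finset.mem_singleton] at hi
    rw [mem_zs]
    rcases hi with rfl | rfl
    · exact hzero i haj hai
    · exact hzero i hbj hbi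
  have h7 := Finset.card_le_card h6
  rw [Finset.card_pair (Ne.symm hba)] at h7
  have h8 : (zs fun i => A i k).card ≤ 1 := h5
  omega

theorem ex_third : ∀ p m : Fin 4, p ≠ 0 → ∃ p' : Fin 4, p' ≠ 0 ∧ p' ≠ p ∧ p' ≠ m := by decide

theorem ex_fourth : ∀ a b c d x : Fin 4, a ≠ b → a ≠ c → b ≠ c → d ≠ a → d ≠ b → d ≠ c → x ≠ a →
    x ≠ b → x ≠ c → x = d := by decide

/-- A combinatorial lemma on three ratios. -/
theorem ratio_cases {K : Type*} {r : Fin 4 → K} {e : K}
    (h : ∀ p, p ≠ 0 → r p ≠ e → ∃ p', p' ≠ 0 ∧ p' ≠ p ∧ r p' = r p)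
    (hn : ¬ ∀ p q, p ≠ 0 → q ≠ 0 → r p = r q) :
    ∃ p, p ≠ 0 ∧ r p = e ∧ ∀ q, q ≠ 0 → q ≠ p → r q ≠ e ∧ ∀ t, t ≠ 0 → t ≠ p → r q = r t := by
  have hf : ∀ p : Fin 4, p ≠ 0 → p = 1 ∨ p = 2 ∨ p = 3 := by decide
  have hn' : ¬ (r 1 = r 2 ∧ r 2 = r 3) := by
    rintro ⟨h1, h2⟩
    apply hn
    intro p q hp hq
    rcases hf p hp with rfl | rfl | rfl <;> rcases hf q hq with rfl | rfl | rfl <;>
      simp_all
  have h1 : r 1 ≠ e → r 2 = r 1 ∨ r 3 = r 1 := by
    intro he
    obtain ⟨p', h0, h1, h2⟩ := h 1 (by decide) he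
    rcases hf p' h0 with rfl | rfl | rfl
    · exact absurd rfl h1
    · exact Or.inl h2
    · exact Or.inr h2
  have h2 : r 2 ≠ e → r 1 = r 2 ∨ r 3 = r 2 := by
    intro he
    obtain ⟨p', h0, h1, h2⟩ := h 2 (by decide) he
    rcases hf p' h0 with rfl | rfl | rfl
    · exact Or.inl h2
    · exact absurd rfl h1
    · exact Or.inr h2
  have h3 : r 3 ≠ e → r 1 = r 3 ∨ r 2 = r 3 := by
    intro he
    obtain ⟨p', h0, h1, h2⟩ := h 3 (by decide) he
    rcases hf p' h0 with rfl | rfl | rfl
    · exact Or.inl h2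
    · exact Or.inr h2
    · exact absurd rfl h1
  by_cases e1 : r 1 = e
  · by_cases e2 : r 2 = e
    · exfalso
      apply hn'
      refine ⟨e1.trans e2.symm, ?_⟩
      by_contra hc
      rcases h3 (fun he => hc (e2.trans he.symm)) with h | h
      · exact hc (e2.trans (e1.symm.trans h))
      · exact hc h
    · have e3 : r 3 = r 2 := by
        rcases h2 e2 with h | h
        · exact absurd (h.symm.trans e1) e2
        · exact h
      refine ⟨1, by decide, e1, fun q hq hq1 => ?_⟩
      have hq' : r q = r 2 := by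
        rcases hf q hq with rfl | rfl | rfl
        · exact absurd rfl hq1
        · rfl
        · exact e3
      refine ⟨by rw [hq']; exact e2, fun t ht ht1 => ?_⟩
      rw [hq']
      rcases hf t ht with rfl | rfl | rfl
      · exact absurd rfl ht1
      · rfl
      · exact e3.symm
  · by_cases e2 : r 2 = e
    · have e3 : r 3 = r 1 := by
        rcases h1 e1 with h | h
        · exact absurd (h.symm.trans e2) e1
        · exact h
      refine ⟨2, by decide, e2, fun q hq hq1 => ?_⟩
      have hq' : r q = r 1 := by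
        rcases hf q hq with rfl | rfl | rfl
        · rfl
        · exact absurd rfl hq1
        · exact e3
      refine ⟨by rw [hq']; exact e1, fun t ht ht1 => ?_⟩
      rw [hq']
      rcases hf t ht with rfl | rfl | rfl
      · rfl
      · exact absurd rfl ht1
      · exact e3.symm
    · by_cases e3 : r 3 = e
      · have e4 : r 2 = r 1 := by
          rcases h1 e1 with h | h
          · exact h
          · exact absurd (h.symm.trans e3) e1
        refine ⟨3, by decide, e3, fun q hq hq1 => ?_⟩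
        have hq' : r q = r 1 := by
          rcases hf q hq with rfl | rfl | rfl
          · rfl
          · exact e4
          · exact absurd rfl hq1
        refine ⟨by rw [hq']; exact e1, fun t ht ht1 => ?_⟩
        rw [hq']
        rcases hf t ht with rfl | rfl | rfl
        · rfl
        · exact e4.symm
        · exact absurd rfl ht1
      · exfalso
        apply hn'
        rcases h1 e1 with h | h
        · rcases h3 e3 with h' | h'
          · exact ⟨h.symm, h.trans h'⟩
          · exact ⟨h.symm, h'⟩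
        · rcases h2 e2 with h' | h'
          · exact ⟨h', h'.symm.trans h.symm⟩
          · exact ⟨h.symm.trans h', h'.symm⟩

/-- **Overgroups of the monomial group of `SL_4(q)`, `q ≥ 7`**: the final contradiction. -/
theorem all_mon {M : Subgroup (GL (Fin 4) F)} (hM : HasMon M) (hN : NoFix M)
    (hF : 7 ≤ Nat.card F) : ∀ g ∈ M, IsMon g := by
  classical
  have hι : Fintype.card (Fin 4) = 4 := Fintype.card_fin 4
  have hf : ∀ p : Fin 4, p ≠ 0 → p = 1 ∨ p = 2 ∨ p = 3 := by decide
  intro g hg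
  by_contra hmon
  have hginv : ¬ IsMon g⁻¹ := fun h => hmon (by have := h.inv; rwa [inv_inv] at this)
  have hg0 := nonzero hM hN hF hι hg hmon
  have hA0 := nonzero hM hN hF hι (M.inv_mem hg) hginv
  set A := ((g⁻¹ : GL (Fin 4) F) : Matrix (Fin 4) (Fin 4) F) with hA
  obtain ⟨B, hB⟩ : ∃ B : Fin 4 → Fin 4 → F, ∀ p a, B p a = A p a * (g : Matrix (Fin 4) (Fin 4) F) a 0 :=
    ⟨_, fun _ _ => rfl⟩
  have hB0 : ∀ p a, B p a ≠ 0 := fun p a => by rw [hB]; exact mul_ne_zero (hA0 _ _) (hg0 _ _)
  have hent : ∀ (d : Fin 4 → Fˣ) (p : Fin 4),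
      ((g⁻¹ * mn 1 d * g : GL (Fin 4) F) : Matrix (Fin 4) (Fin 4) F) p 0 = ∑ a, B p a * (d a : F) := by
    intro d p
    rw [conj_entry]
    refine Finset.sum_congr rfl fun a _ => ?_
    rw [hB, ← hA]
    ring
  have hsum : ∀ p, p ≠ 0 → ∑ a, B p a = 0 := by
    intro p hp
    have h1 : ∑ a, A p a * (g : Matrix (Fin 4) (Fin 4) F) a 0 = if p = 0 then 1 else 0 := by
      rw [← Matrix.mul_apply, hA, ← Units.val_mul, inv_mul_cancel, Units.val_one, Matrix.one_apply]
    rw [if_neg hp] at h1
    rw [← h1]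
    exact Finset.sum_congr rfl fun a _ => hB p a
  -- an element of `M` with a zero entry in the first column
  have hzero : ∀ d : Fin 4 → Fˣ, ∏ i, d i = 1 → (∃ p, ∑ a, B p a * (d a : F) = 0) →
      ∃ m, ∀ p, p ≠ m → ∑ a, B p a * (d a : F) = 0 := by
    rintro d hd ⟨p, hp⟩
    have hyM : g⁻¹ * mn 1 d * g ∈ M := M.mul_mem (M.mul_mem (M.inv_mem hg) (hM.diag d hd)) hg
    have hymon : IsMon (g⁻¹ * mn 1 d * g) := by
      by_contra hc
      exact nonzero hM hN hF hι hyM hc p 0 (by rw [hent, hp])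
    obtain ⟨m, hm⟩ := hymon 0
    exact ⟨m, fun p hp => by rw [← hent]; exact hm p hp⟩
  have star : ∀ a b, a ≠ b → ∀ p, p ≠ 0 → B p b ≠ B p a →
      ∃ p', p' ≠ 0 ∧ p' ≠ p ∧ B p' b / B p' a = B p b / B p a := by
    intro a b hab p hp hne
    have hs0 : B p b / B p a ≠ 0 := div_ne_zero (hB0 _ _) (hB0 _ _)
    obtain ⟨s, hs⟩ : ∃ s : F, s = B p b / B p a := ⟨_, rfl⟩
    rw [← hs] at hs0 ⊢
    have hs1 : s ≠ 1 := by
      intro h1
      rw [h1, eq_comm, div_eq_one_iff_eq (hB0 _ _)] at hs
      exact hne hs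
    have hpb : B p b = s * B p a := by rw [hs, div_mul_cancel₀ _ (hB0 _ _)]
    set u : Fˣ := Units.mk0 s hs0 with hu
    have hval : ∀ q, q ≠ 0 → ∑ a', B q a' * (((if a' = a then u else if a' = b then u⁻¹ else 1 : Fˣ)) : F) =
        (s - 1) * (B q a - s⁻¹ * B q b) := by
      intro q hq
      have h1 : ∀ a', B q a' * (((if a' = a then u else if a' = b then u⁻¹ else 1 : Fˣ)) : F) =
          B q a' + ((if a' = a then B q a * (s - 1) else 0) + (if a' = b then B q b * (s⁻¹ - 1) else 0)) := by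
        intro a'
        by_cases h1 : a' = a
        · subst h1
          simp [hab, hu]
          ring
        · by_cases h2 : a' = b
          · subst h2
            simp [h1, hu]
            ring
          · simp [h1, h2]
      rw [Finset.sum_congr rfl fun a' _ => h1 a', Finset.sum_add_distrib, Finset.sum_add_distrib,
        Finset.sum_ite_eq' Finset.univ a, Finset.sum_ite_eq' Finset.univ b, hsum q hq,
        if_pos (Finset.mem_univ _), if_pos (Finset.mem_univ _)]
      have h2 : s * s⁻¹ = 1 := mul_inv_cancel₀ hs0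
      linear_combination B q b * h2
    obtain ⟨m, hm⟩ := hzero (fun a' => if a' = a then u else if a' = b then u⁻¹ else 1)
      (by rw [prod_two hab, mul_inv_cancel]) ⟨p, by
        rw [hval p hp, hpb, ← mul_assoc s⁻¹, inv_mul_cancel₀ hs0]; ring⟩
    obtain ⟨p', h0, h1, h2⟩ := ex_third p m hp
    refine ⟨p', h0, h1, ?_⟩
    have h3 := hm p' h2
    rw [hval p' h0] at h3
    have h4 := (mul_eq_zero.1 h3).resolve_left (sub_ne_zero.2 hs1)
    rw [div_eq_iff (hB0 _ _)]
    have h2 : s * s⁻¹ = 1 := mul_inv_cancel₀ hs0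
    linear_combination (-s) * h4 - B p' b * h2
  -- no two columns are proportional
  have hnp : ∀ a b, a ≠ b → ¬ ∀ p q, p ≠ 0 → q ≠ 0 → B p b / B p a = B q b / B q a := by
    intro a b hab hall
    obtain ⟨c, hca, hcb⟩ := exists_ne_two (by omega : 3 ≤ Fintype.card (Fin 4)) a b
    set r : F := B 1 b / B 1 a with hr
    have hprop : ∀ p, p ≠ 0 → B p b = r * B p a := by
      intro p hp
      rw [hr, ← hall p 1 hp (by decide), div_mul_cancel₀ _ (hB0 _ _)]
    set v : Fin 4 → F := fun i => if i = b then (g : Matrix (Fin 4) (Fin 4) F) b 0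
      else if i = a then -r * (g : Matrix (Fin 4) (Fin 4) F) a 0 else 0 with hv
    have h1 : ∀ p, p ≠ 0 → (A *ᵥ v) p = 0 := by
      intro p hp
      rw [hv, mulVec_two _ hab.symm]
      have := hprop p hp
      rw [hB, hB] at this
      linear_combination this
    have h2 : A *ᵥ v = (A *ᵥ v) 0 • Pi.single 0 1 := eq_smul_single h1
    have h3 : v = (A *ᵥ v) 0 • ((g : Matrix (Fin 4) (Fin 4) F) *ᵥ Pi.single 0 1) := by
      rw [← mulVec_smul, ← h2, hA, mulVec_inv_mulVec]
    have h4 := congrFun h3 c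
    have h5 : v c = 0 := by simp [hv, hca, hcb]
    rw [h5, Pi.smul_apply, entry_eq, smul_eq_mul] at h4
    have h6 := (mul_eq_zero.1 h4.symm).resolve_right (hg0 _ _)
    have h7 := congrFun h3 b
    rw [h6, zero_smul] at h7
    have h8 : v b = (g : Matrix (Fin 4) (Fin 4) F) b 0 := by simp [hv]
    rw [h8] at h7
    exact hg0 b 0 h7
  -- the three-way alternative
  have hT : ∀ a b, a ≠ b → ∃ p, p ≠ 0 ∧ B p a = B p b ∧ ∀ q, q ≠ 0 → q ≠ p →
      B q a ≠ B q b ∧ ∀ t, t ≠ 0 → t ≠ p → B q b * B t a = B t b * B q a := by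
    intro a b hab
    obtain ⟨p, hp, h1, h2⟩ := ratio_cases (r := fun p => B p b / B p a) (e := 1)
      (fun p hp hne => star a b hab p hp (fun h => hne (by
        change B p b / B p a = 1
        rw [h, div_self (hB0 _ _)]))) (hnp a b hab)
    have h1' : B p b / B p a = 1 := h1
    rw [div_eq_one_iff_eq (hB0 _ _)] at h1'
    refine ⟨p, hp, h1'.symm, fun q hq hqp => ?_⟩
    obtain ⟨h3, h4⟩ := h2 q hq hqp
    refine ⟨fun h => h3 ?_, fun t ht htp => ?_⟩
    · change B q b / B q a = 1
      rw [h, div_self (hB0 _ _)]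
    · have h5 : B q b / B q a = B t b / B t a := h4 t ht htp
      rw [div_eq_div_iff (hB0 _ _) (hB0 _ _)] at h5
      exact h5
  -- uniqueness of the row
  have huniq : ∀ a b, a ≠ b → ∀ p q, p ≠ 0 → q ≠ 0 → B p a = B p b → B q a = B q b → p = q := by
    intro a b hab p q hp hq h1 h2
    obtain ⟨m, -, -, hm⟩ := hT a b hab
    have h3 : p = m := by
      by_contra hc
      exact (hm p hp hc).1 h1
    have h4 : q = m := by
      by_contra hc
      exact (hm q hq hc).1 h2
    rw [h3, h4]
  have hratio : ∀ a b, a ≠ b → ∀ p, p ≠ 0 → B p a = B p b → ∀ q t, q ≠ 0 → t ≠ 0 → q ≠ p → t ≠ p →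
      B q b * B t a = B t b * B q a := by
    intro a b hab p hp h1 q t hq ht hqp htp
    obtain ⟨m, hm0, hm1, hm⟩ := hT a b hab
    have h3 : p = m := huniq a b hab p m hp hm0 h1 hm1
    subst h3
    exact (hm q hq hqp).2 t ht htp
  -- no three equal entries in a row
  have hthree : ∀ a b c, a ≠ b → a ≠ c → b ≠ c → ∀ p, p ≠ 0 → B p a = B p b → B p a = B p c →
      False := by
    intro a b c hab hac hbc p hp h1 h2
    obtain ⟨d, hda, hdb, hdc⟩ := exists_ne_three (by omega : 4 ≤ Fintype.card (Fin 4)) a b c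
    obtain ⟨q, t, hq, ht, hqp, htp, hqt, hall⟩ : ∃ q t : Fin 4, q ≠ 0 ∧ t ≠ 0 ∧ q ≠ p ∧ t ≠ p ∧
        q ≠ t ∧ ∀ m : Fin 4, m ≠ 0 → m = p ∨ m = q ∨ m = t := by
      clear * - hp
      revert p
      decide
    by_cases hd : B p a = B p d
    · -- rows `q` and `t` are proportional
      have h3 : ∀ x, B q x * B t a = B t x * B q a := by
        intro x
        by_cases hxa : x = a
        · rw [hxa]; ring
        · have h4 : B p a = B p x := by
            by_cases hxb : x = b
            · rw [hxb]; exact h1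
            · by_cases hxc : x = c
              · rw [hxc]; exact h2
              · have : x = d := ex_fourth a b c d x hab hac hbc hda hdb hdc hxa hxb hxc
                rw [this]; exact hd
          exact hratio a x (Ne.symm hxa) p hp h4 q t hq ht hqp htp
      have h4 : ∀ x, A q x * B t a = A t x * B q a := by
        intro x
        have h5 := h3 x
        rw [hB q x, hB t x] at h5
        apply mul_right_cancel₀ (hg0 x 0)
        linear_combination h5
      have h5 : ((g⁻¹ * g : GL (Fin 4) F) : Matrix (Fin 4) (Fin 4) F) q t * B t a =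
          ((g⁻¹ * g : GL (Fin 4) F) : Matrix (Fin 4) (Fin 4) F) t t * B q a := by
        rw [Units.val_mul, Matrix.mul_apply, Matrix.mul_apply, Finset.sum_mul, Finset.sum_mul]
        refine Finset.sum_congr rfl fun x _ => ?_
        linear_combination ((g : Matrix (Fin 4) (Fin 4) F) x t) * h4 x
      rw [inv_mul_cancel, Units.val_one, Matrix.one_apply_ne hqt, Matrix.one_apply_eq, zero_mul,
        one_mul] at h5
      exact hB0 q a h5.symm
    · have h3 : ∀ x, x = a ∨ x = b ∨ x = c → x ≠ d ∧ B p x ≠ B p d := by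
        rintro x (rfl | rfl | rfl)
        · exact ⟨hda.symm, hd⟩
        · exact ⟨hdb.symm, by rw [← h1]; exact hd⟩
        · exact ⟨hdc.symm, by rw [← h2]; exact hd⟩
      have h4 : ∀ x, x = a ∨ x = b ∨ x = c → B q x = B q d ∨ B t x = B t d := by
        intro x hx
        obtain ⟨m, hm0, hm1, -⟩ := hT x d (h3 x hx).1
        rcases hall m hm0 with rfl | rfl | rfl
        · exact absurd hm1 (h3 x hx).2
        · exact Or.inl hm1
        · exact Or.inr hm1
      have h5 : ∀ x y, x ≠ y → B p x = B p y → ∀ m, m ≠ 0 → m ≠ p → B m x = B m d → B m y = B m d →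
          False := by
        intro x y hxy hp1 m hm hmp h6 h7
        exact hmp (huniq x y hxy m p hm hp (h6.trans h7.symm) hp1)
      have h12 : B p b = B p c := h1.symm.trans h2
      rcases h4 a (Or.inl rfl) with ha | ha <;> rcases h4 b (Or.inr (Or.inl rfl)) with hb | hb <;>
        rcases h4 c (Or.inr (Or.inr rfl)) with hc | hc
      · exact h5 a b hab h1 q hq hqp ha hb
      · exact h5 a b hab h1 q hq hqp ha hb
      · exact h5 a c hac h2 q hq hqp ha hc
      · exact h5 b c hbc h12 t ht htp hb hc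
      · exact h5 b c hbc h12 q hq hqp hb hc
      · exact h5 a c hac h2 t ht htp ha hc
      · exact h5 a b hab h1 t ht htp ha hb
      · exact h5 a b hab h1 t ht htp ha hb
  -- the rows of the pairs `(0, b)`
  obtain ⟨p₁, hp₁, e01, -⟩ := hT 0 1 (by decide)
  obtain ⟨p₂, hp₂, e02, -⟩ := hT 0 2 (by decide)
  obtain ⟨p₃, hp₃, e03, -⟩ := hT 0 3 (by decide)
  have h12 : p₁ ≠ p₂ := by
    rintro rfl
    exact hthree 0 1 2 (by decide) (by decide) (by decide) p₁ hp₁ e01 e02
  have h13 : p₁ ≠ p₃ := by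
    rintro rfl
    exact hthree 0 1 3 (by decide) (by decide) (by decide) p₁ hp₁ e01 e03
  have h23 : p₂ ≠ p₃ := by
    rintro rfl
    exact hthree 0 2 3 (by decide) (by decide) (by decide) p₂ hp₂ e02 e03
  have hall : ∀ m : Fin 4, m ≠ 0 → m = p₁ ∨ m = p₂ ∨ m = p₃ := by
    clear * - hp₁ hp₂ hp₃ h12 h13 h23
    revert p₁ p₂ p₃
    decide
  have e12 : B p₃ 1 = B p₃ 2 := by
    obtain ⟨m, hm0, hm1, -⟩ := hT 1 2 (by decide)
    rcases hall m hm0 with rfl | rfl | rfl
    · exact (hthree 0 1 2 (by decide) (by decide) (by decide) m hp₁ e01 (e01.trans hm1)).elim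
    · exact (hthree 0 2 1 (by decide) (by decide) (by decide) m hp₂ e02 (e02.trans hm1.symm)).elim
    · exact hm1
  have e13 : B p₂ 1 = B p₂ 3 := by
    obtain ⟨m, hm0, hm1, -⟩ := hT 1 3 (by decide)
    rcases hall m hm0 with rfl | rfl | rfl
    · exact (hthree 0 1 3 (by decide) (by decide) (by decide) m hp₁ e01 (e01.trans hm1)).elim
    · exact hm1
    · exact (hthree 0 3 1 (by decide) (by decide) (by decide) m hp₃ e03 (e03.trans hm1.symm)).elim
  have e23 : B p₁ 2 = B p₁ 3 := by
    obtain ⟨m, hm0, hm1, -⟩ := hT 2 3 (by decide)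
    rcases hall m hm0 with rfl | rfl | rfl
    · exact hm1
    · exact (hthree 0 2 3 (by decide) (by decide) (by decide) m hp₂ e02 (e02.trans hm1)).elim
    · exact (hthree 0 3 2 (by decide) (by decide) (by decide) m hp₃ e03 (e03.trans hm1.symm)).elim
  -- the signs
  have n2 : B p₂ 1 ≠ B p₂ 0 := fun h => h12 (huniq 0 1 (by decide) p₁ p₂ hp₁ hp₂ e01 h.symm)
  have n1 : B p₁ 2 ≠ B p₁ 0 := fun h => h12 (huniq 0 2 (by decide) p₁ p₂ hp₁ hp₂ h.symm e02)
  have r03 := hratio 0 3 (by decide) p₃ hp₃ e03 p₁ p₂ hp₁ hp₂ h13 h23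
  have r12 := hratio 1 2 (by decide) p₃ hp₃ e12 p₁ p₂ hp₁ hp₂ h13 h23
  have r02 := hratio 0 2 (by decide) p₂ hp₂ e02 p₁ p₃ hp₁ hp₃ h12 h23.symm
  rw [← e23, ← e13] at r03
  rw [← e01, ← e02] at r12
  rw [← e12] at r02
  -- r03 : B p₁ 2 * B p₂ 0 = B p₂ 1 * B p₁ 0, r12 : B p₁ 2 * B p₂ 1 = B p₂ 0 * B p₁ 0
  have s2 : B p₂ 1 = - B p₂ 0 := by
    have h1 : B p₁ 0 * ((B p₂ 1 - B p₂ 0) * (B p₂ 1 + B p₂ 0)) = 0 := by
      linear_combination (-(B p₂ 1)) * r03 + (B p₂ 0) * r12
    have h2 := (mul_eq_zero.1 ((mul_eq_zero.1 h1).resolve_left (hB0 _ _))).resolve_left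
      (sub_ne_zero.2 n2)
    linear_combination h2
  have s1 : B p₁ 2 = - B p₁ 0 := by
    have h1 : B p₂ 0 * (B p₁ 2 + B p₁ 0) = 0 := by
      rw [s2] at r03
      linear_combination r03
    have h2 := (mul_eq_zero.1 h1).resolve_left (hB0 _ _)
    linear_combination h2
  have s3 : B p₃ 1 = - B p₃ 0 := by
    have h1 : B p₁ 0 * (B p₃ 1 + B p₃ 0) = 0 := by
      rw [s1] at r02
      linear_combination -r02
    have h2 := (mul_eq_zero.1 h1).resolve_left (hB0 _ _)
    linear_combination h2
  have h2 : (2 : F) ≠ 0 := by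
    intro h0
    apply n2
    rw [s2]
    linear_combination (-(B p₂ 0)) * h0
  obtain ⟨θ, t2, -, t4⟩ := exists_theta (by omega : 5 ≤ Nat.card F)
  have t4 := t4 hF
  have hθi : (θ : F) * ((θ⁻¹ : Fˣ) : F) = 1 := Units.mul_inv θ
  obtain ⟨m, hm⟩ := hzero ![θ, -θ, θ⁻¹, -θ⁻¹] (by
    rw [Fin.prod_univ_four]
    simp) ⟨p₁, by
    rw [Fin.sum_univ_four]
    simp only [Matrix.cons_val_zero, Matrix.cons_val_one, Matrix.cons_val, Units.val_neg]
    rw [← e01, ← e23]
    ring⟩
  have v2 : ∑ a, B p₂ a * ((![θ, -θ, θ⁻¹, -θ⁻¹] : Fin 4 → Fˣ) a : F) ≠ 0 := by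
    rw [Fin.sum_univ_four]
    simp only [Matrix.cons_val_zero, Matrix.cons_val_one, Matrix.cons_val, Units.val_neg]
    rw [← e02, ← e13, s2]
    intro h0
    have h1 : 2 * B p₂ 0 * ((θ : F) * θ + 1) = 0 := by
      linear_combination (θ : F) * h0 - (2 * B p₂ 0) * hθi
    have h3 := (mul_eq_zero.1 h1).resolve_left (mul_ne_zero h2 (hB0 _ _))
    apply t4
    linear_combination ((θ : F) * θ - 1) * h3
  have v3 : ∑ a, B p₃ a * ((![θ, -θ, θ⁻¹, -θ⁻¹] : Fin 4 → Fˣ) a : F) ≠ 0 := by
    rw [Fin.sum_univ_four]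
    simp only [Matrix.cons_val_zero, Matrix.cons_val_one, Matrix.cons_val, Units.val_neg]
    rw [← e03, ← e12, s3]
    intro h0
    have h1 : 2 * B p₃ 0 * ((θ : F) * θ - 1) = 0 := by
      linear_combination (θ : F) * h0 + (2 * B p₃ 0) * hθi
    have h3 := (mul_eq_zero.1 h1).resolve_left (mul_ne_zero h2 (hB0 _ _))
    apply t2
    linear_combination h3
  by_cases h2m : p₂ = m
  · exact v3 (hm p₃ (by rw [← h2m]; exact h23.symm))
  · exact v2 (hm p₂ h2m)

/-- **Overgroups of the monomial group of `SL_4(q)`, `q ≥ 7`.** -/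
theorem sl_monomial_four {M : Subgroup (GL (Fin 4) F)} (hM : HasMon M)
    (hMS : M ≤ Cfsg.Geo.specialLinear (Fin 4) F) (hF : 7 ≤ Nat.card F) :
    (∀ g ∈ M, IsMon g) ∨ Cfsg.Geo.specialLinear (Fin 4) F ≤ M := by
  by_cases hne : Cfsg.Geo.specialLinear (Fin 4) F ≤ M
  · exact Or.inr hne
  · exact Or.inl (all_mon hM (noFix_of hM hMS (by omega) (Fintype.card_fin 4) hne) hF)

end Cfsg.Agent.H827.MonoFour
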