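import Cfsg.Agent.CTwoTab.FiTF
import Cfsg.Agent.OddHalf.Table.OutFi22
import Cfsg.Agent.H827.PairAbs

/-!
# The centralizer in `Fi24'` of a product of two commuting transpositions (helper827)

* `pd` : `PD Fi22 t (N a b)` for `t = a b`, where `N a b = C(a) ∩ C(b) ∩ Fi24'`;
* `card_mulAut` : `|Aut Fi22| ≤ 2 |Fi22|`.
-/

set_option autoImplicit false

namespace Cfsg.Agent.H827.Pair

open Cfsg Cfsg.Spor Cfsg.Agent.R01 Cfsg.Agent.R08 Cfsg.Agent.R08.FiTwentyFour Cfsg.Agent.CTwoTab.FiTF
open Cfsg.Agent.H827.PairAbs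
open Subgroup

local notation "Pr" => Cfsg.Agent.R08.TetFi24A.At

theorem exists_nb {a b : Fi24} (P : Pr a b) : ∃ c, TetFi24A.Nb a b c := by
  have h1 : (Fi22Facts.T : Set Fi22).Nonempty := by
    rw [Set.nonempty_iff_ne_empty]
    intro h
    have h2 := Fi22Facts.ncard_T
    rw [h, Set.ncard_empty] at h2
    exact absurd h2 (by norm_num)
  obtain ⟨t, ht⟩ := h1
  obtain ⟨c, hc, -⟩ := P.exists_x ht
  exact ⟨c, hc⟩

/-- **The data at a pair** -/
theorem pd {a b : Fi24} (P : Pr a b) {t : Spor.Fi24'} (ht : (t : Fi24) = a * b) : PD Fi22 t (N a b) := by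
  have aa : a * a = 1 := FiTwentyFour.sq P.ha
  have bb : b * b = 1 := FiTwentyFour.sq P.hb
  have hab : a * b = b * a := P.ab.eq
  have ht1 : t ≠ 1 := by
    rintro rfl
    have h1 : a * b = 1 := ht.symm
    exact P.ne (mul_right_cancel (h1.trans bb.symm))
  have hsw : ∀ x : Spor.Fi24', x * t = t * x →
      ((x : Fi24) * a * (x : Fi24)⁻¹ = a ∧ (x : Fi24) * b * (x : Fi24)⁻¹ = b) ∨
      ((x : Fi24) * a * (x : Fi24)⁻¹ = b ∧ (x : Fi24) * b * (x : Fi24)⁻¹ = a) := fun x hx =>
    fix_or_swap P ht (mem_centralizer_singleton_iff.2 hx)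
  have hN : ∀ x : Spor.Fi24', x ∈ N a b ↔
      ((x : Fi24) * a * (x : Fi24)⁻¹ = a ∧ (x : Fi24) * b * (x : Fi24)⁻¹ = b) := by
    intro x
    rw [mem_N, mem_Cab, mul_inv_eq_iff_eq_mul, mul_inv_eq_iff_eq_mul]
    constructor
    · exact fun h => h.2
    · exact fun h => ⟨mem_commutator_iff.1 x.2, h⟩
  have hmul : ∀ x y : Spor.Fi24', ∀ u : Fi24, ((x * y : Spor.Fi24') : Fi24) * u * ((x * y : Spor.Fi24') : Fi24)⁻¹ =
      (x : Fi24) * ((y : Fi24) * u * (y : Fi24)⁻¹) * (x : Fi24)⁻¹ := by
    intro x y u
    rw [Subgroup.coe_mul]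
    group
  have hinv : ∀ x : Spor.Fi24', ∀ u v : Fi24, (x : Fi24) * u * (x : Fi24)⁻¹ = v →
      ((x⁻¹ : Spor.Fi24') : Fi24) * v * ((x⁻¹ : Spor.Fi24') : Fi24)⁻¹ = u := by
    intro x u v h
    rw [← h, Subgroup.coe_inv]
    group
  refine ⟨?_, ht1, ?_, ?_, qs_N P, ?_, ?_, ?_, ?_⟩
  · apply Subtype.ext
    show (t : Fi24) * (t : Fi24) = 1
    rw [ht]
    calc a * b * (a * b) = a * (b * a) * b := by group
      _ = a * (a * b) * b := by rw [hab]
      _ = (a * a) * (b * b) := by group
      _ = 1 := by rw [aa, bb, one_mul]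
  · exact fun x hx => mem_centralizer_singleton_iff.1 (N_le ht hx)
  · intro c hc n hn
    have h1 := (hN n).1 hn
    rw [hN, hmul, hmul, hmul, hmul]
    rcases hsw c hc with ⟨h2, h3⟩ | ⟨h2, h3⟩
    · rw [hinv c _ _ h2, hinv c _ _ h3, h1.1, h1.2]
      exact ⟨h2, h3⟩
    · rw [hinv c _ _ h2, hinv c _ _ h3, h1.1, h1.2]
      exact ⟨h3, h2⟩
  · rw [hN, ht]
    constructor
    · calc a * b * a * (a * b)⁻¹ = a * (b * a) * (b⁻¹ * a⁻¹) := by group
        _ = a * (a * b) * (b⁻¹ * a⁻¹) := by rw [hab]
        _ = a := by group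
    · calc a * b * b * (a * b)⁻¹ = a * b * a⁻¹ := by group
        _ = b * a * a⁻¹ := by rw [hab]
        _ = b := by group
  · intro x hx hc
    have hxN : x ∈ N a b := by
      rcases hsw x hx with h | ⟨h1, h2⟩
      · exact (hN x).2 h
      · exfalso
        obtain ⟨c, hc1⟩ := exists_nb P
        have h3 := (P.x hc1).2
        have h4 : (⟨a * c, Cab_le h3⟩ : Spor.Fi24') ∈ N a b := mem_N.2 h3
        have h5 := congrArg Subtype.val (hc _ h4)
        have h6 : (x : Fi24) * (a * c) = a * c * x := h5
        -- the transposition `c' = x c x⁻¹`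
        have h7 : b * ((x : Fi24) * c * (x : Fi24)⁻¹) = a * c := by
          calc b * ((x : Fi24) * c * (x : Fi24)⁻¹)
              = ((x : Fi24) * a * (x : Fi24)⁻¹) * ((x : Fi24) * c * (x : Fi24)⁻¹) := by rw [h1]
            _ = (x : Fi24) * (a * c) * (x : Fi24)⁻¹ := by group
            _ = a * c := by rw [h6]; group
        have hcL := FiTwentyFour.conj hc1.hc (x : Fi24)
        generalize (x : Fi24) * c * (x : Fi24)⁻¹ = c' at h7 hcL
        have hac : a * c = c * a := hc1.ca.eq.symm
        have hbc : b * c = c * b := hc1.cb.eq.symm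
        have cc : c * c = 1 := FiTwentyFour.sq hc1.hc
        have h8 : c' = b * (a * c) := by
          rw [← h7, ← mul_assoc, bb, one_mul]
        have h9 : c' * c' = 1 := FiTwentyFour.sq hcL
        have h10 : a * b = c * c' := by
          rw [h8]
          calc a * b = b * a := hab
            _ = b * a * (c * c) := by rw [cc, mul_one]
            _ = b * (a * c) * c := by group
            _ = b * (c * a) * c := by rw [hac]
            _ = (b * c) * (a * c) := by group
            _ = (c * b) * (a * c) := by rw [hbc]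
            _ = c * (b * (a * c)) := by group
        have hne1 : a ≠ c' := by
          intro h
          apply hc1.nb
          -- a = b a c, so c = a b a = b
          rw [← h] at h10
          have : c = a * b * a := by
            rw [h10, mul_assoc, aa, mul_one]
          rw [this, hab, mul_assoc, aa, mul_one]
        have hne2 : b ≠ c' := by
          intro h
          apply hc1.na
          rw [← h] at h10
          exact (mul_right_cancel h10).symm
        have hne3 : c ≠ c' := by
          intro h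
          rw [← h, cc] at h10
          exact P.ne (mul_right_cancel (h10.trans bb.symm))
        have hca' : Commute a c' := by
          show a * c' = c' * a
          rw [h8]
          calc a * (b * (a * c)) = (a * b) * (a * c) := by group
            _ = (b * a) * (a * c) := by rw [hab]
            _ = b * a * (c * a) := by rw [hac]
            _ = _ := by group
        have hcb' : Commute b c' := by
          show b * c' = c' * b
          rw [h8]
          calc b * (b * (a * c)) = b * (b * a * c) := by group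
            _ = b * (a * b * c) := by rw [hab]
            _ = b * a * (b * c) := by group
            _ = b * a * (c * b) := by rw [hbc]
            _ = _ := by group
        exact TetFi24A.four P.ha P.hb hc1.hc hcL P.ne hc1.na.symm hne1 hc1.nb.symm hne2 hne3 P.ab
          hc1.ca.symm hca' hc1.cb.symm hcb' h10
    have h2 : (⟨x, mem_N.1 hxN⟩ : ↥(Cab a b)) ∈ center ↥(Cab a b) := by
      rw [mem_center_iff]
      intro g
      apply Subtype.ext
      have h3 : (⟨(g : Fi24), Cab_le g.2⟩ : Spor.Fi24') ∈ N a b := mem_N.2 g.2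
      exact (congrArg Subtype.val (hc _ h3)).symm
    have h3 := (CTwoTab.ker_eq_center P.lift.ext.surj center_Fi22 (ker_le P)).symm ▸ h2
    rw [MonoidHom.mem_ker, P.lift.ext.ker] at h3
    rcases h3 with h | h
    · left
      apply Subtype.ext
      have h4 : (x : Fi24) = 1 := congrArg (Subtype.val : ↥(Cab a b) → Fi24) h
      exact h4
    · right
      apply Subtype.ext
      have h4 := congrArg (Subtype.val : ↥(Cab a b) → Fi24) h
      rw [P.hz, ← ht] at h4
      exact h4
  · obtain ⟨g, hg, h1, h2⟩ := FiTwentyFour.trans2 P.ha P.hb P.hb P.ha P.ne P.ab P.ne.symm P.ab.symm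
    refine ⟨⟨g, hg⟩, ?_, ?_, ?_⟩
    · apply Subtype.ext
      show g * (t : Fi24) = (t : Fi24) * g
      rw [ht, ← mul_inv_eq_iff_eq_mul]
      calc g * (a * b) * g⁻¹ = (g * a * g⁻¹) * (g * b * g⁻¹) := by group
        _ = b * a := by rw [h1, h2]
        _ = a * b := hab.symm
    · intro h
      have h3 := ((hN _).1 h).1
      exact P.ne (h3.symm.trans h1)
    · intro x hx hxN
      rw [hN, hmul, hmul]
      rcases hsw x hx with h | ⟨h3, h4⟩
      · exact absurd ((hN x).2 h) hxN
      · rw [h3, h4]
        exact ⟨hinv ⟨g, hg⟩ _ _ h1, hinv ⟨g, hg⟩ _ _ h2⟩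
  · refine ⟨P.π.comp (eN a b).toMonoidHom, ?_, ?_⟩
    · intro y
      obtain ⟨n, rfl⟩ := P.lift.ext.surj y
      refine ⟨(eN a b).symm n, ?_⟩
      show P.π (eN a b ((eN a b).symm n)) = _
      rw [MulEquiv.apply_symm_apply]
    · intro n
      show P.π (eN a b n) = 1 ↔ _
      rw [P.lift.ext.ker]
      constructor
      · rintro (h | h)
        · left
          apply Subtype.ext
          have h4 : ((n : Spor.Fi24') : Fi24) = 1 := congrArg (Subtype.val : ↥(Cab a b) → Fi24) h
          exact h4
        · right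
          apply Subtype.ext
          have h4 := congrArg (Subtype.val : ↥(Cab a b) → Fi24) h
          rw [P.hz, ← ht] at h4
          exact h4
      · rintro (h | h)
        · left
          apply Subtype.ext
          have h4 : ((n : Spor.Fi24') : Fi24) = 1 := congrArg (Subtype.val : Spor.Fi24' → Fi24) h
          exact h4
        · right
          apply Subtype.ext
          rw [P.hz, ← ht]
          exact congrArg (Subtype.val : Spor.Fi24' → Fi24) h

/-- `|Aut Fi22| ≤ 2 |Fi22|` -/
theorem card_mulAut : Nat.card (MulAut Fi22) ≤ 2 * Nat.card Fi22 := by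
  have h1 : (MulAut.conj : Fi22 →* MulAut Fi22).range.index ≤ 2 := by
    by_cases htop : (MulAut.conj : Fi22 →* MulAut Fi22).range = ⊤
    · rw [htop, index_top]
      norm_num
    · obtain ⟨α, hα⟩ : ∃ α, α ∉ (MulAut.conj : Fi22 →* MulAut Fi22).range := by
        by_contra hcon
        push Not at hcon
        exact htop (eq_top_iff.2 fun x _ => hcon x)
      apply le_of_eq
      rw [index_eq_two_iff]
      refine ⟨α, fun β => ?_⟩
      by_cases hβ : β ∈ (MulAut.conj : Fi22 →* MulAut Fi22).range
      · right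
        refine ⟨hβ, fun h => hα ?_⟩
        have h3 := mul_mem (inv_mem hβ) h
        rwa [inv_mul_cancel_left] at h3
      · left
        obtain ⟨x, hx⟩ := OddHalf.Table.OutFi22.mul_outer β α (fun x h => hβ ⟨x, h.symm⟩)
          (fun x h => hα ⟨x, h.symm⟩)
        exact ⟨⟨x, hx.symm⟩, hβ⟩
  have h2 := card_mul_index (MulAut.conj : Fi22 →* MulAut Fi22).range
  have h3 : Nat.card ↥(MulAut.conj : Fi22 →* MulAut Fi22).range ≤ Nat.card Fi22 := by
    have : Finite Fi22 := Nat.finite_of_card_ne_zero (by rw [Cfsg.Agent.S1696.result.2]; norm_num)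
    exact Nat.card_le_card_of_surjective _ (MonoidHom.rangeRestrict_surjective (MulAut.conj : Fi22 →* MulAut Fi22))
  calc Nat.card (MulAut Fi22) = _ := h2.symm
    _ ≤ Nat.card Fi22 * 2 := Nat.mul_le_mul h3 h1
    _ = 2 * Nat.card Fi22 := mul_comm _ _

end Cfsg.Agent.H827.Pair
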