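import Cfsg.Agent.H929.SimO

/-!
The similarity group of a non-degenerate quadratic form over a field of odd order meets `SL_n(q)` in
a maximal subgroup, `n ≥ 4` (the case `n ≥ 5` is `H929.quadratic_similarity_maximal`).
-/

set_option autoImplicit false
set_option linter.unusedSectionVars false

namespace Cfsg.Agent.H827.SimOFour

open Matrix Cfsg.Agent.H873 Cfsg.Agent.H929

variable {ι : Type} [Fintype ι] [DecidableEq ι] {F : Type*} [Field F]
variable {Q Q' : (ι → F) → F} {B B' : (ι → F) → (ι → F) → F}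

/-- A subgroup of `GL` containing the special similarities of a non-degenerate
quadratic form (odd characteristic) and an element which is not a similarity contains `SL`. -/
theorem sl_le_of_quadratic [Finite F] (h2 : (2 : F) ≠ 0) (hn : 4 ≤ Fintype.card ι)
    (hQ : Cfsg.Geo.IsNondegenerateQuadraticForm Q) {M : Subgroup (GL ι F)}
    (hM : Cfsg.Geo.quadSimilarityGroup Q ⊓ Cfsg.Geo.specialLinear ι F ≤ M) {g : GL ι F} (hgM : g ∈ M)
    (hg : g ∉ Cfsg.Geo.quadSimilarityGroup Q) : Cfsg.Geo.specialLinear ι F ≤ M := by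
  have h := QF.of Q hQ
  set B := QuadraticMap.polar Q with hB
  have hnd : ∀ x, x ≠ 0 → ∃ y, B x y ≠ 0 := fun x hx => (hQ.nondegenerate x hx).2
  have hndT : ∀ x ∈ (⊤ : Submodule F (ι → F)), x ≠ 0 → ∃ y ∈ (⊤ : Submodule F (ι → F)), B x y ≠ 0 :=
    fun x _ hx => by obtain ⟨y, hy⟩ := hnd x hx; exact ⟨y, trivial, hy⟩
  have hnt : Nontrivial ι := Fintype.one_lt_card_iff_nontrivial.1 (by omega)
  -- the transported form
  set gi : Matrix ι ι F := ((g⁻¹ : GL ι F) : Matrix ι ι F) with hgi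
  have hgx : ∀ x, gi *ᵥ ((g : Matrix ι ι F) *ᵥ x) = x := inv_mulVec_cancel g
  have hgx' : ∀ x, (g : Matrix ι ι F) *ᵥ (gi *ᵥ x) = x := mulVec_inv_cancel g
  set Q' : (ι → F) → F := fun x => Q (gi *ᵥ x) with hQ'
  set B' : (ι → F) → (ι → F) → F := fun x y => B (gi *ᵥ x) (gi *ᵥ y) with hB'
  have h' : QF Q' B' := by
    refine ⟨fun c v => ?_, fun x y => ?_, fun x y v => ?_, fun c x v => ?_⟩
    · simp only [hQ', mulVec_smul, h.smul]
    · simp only [hQ', hB', mulVec_add, h.add]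
    · simp only [hB', mulVec_add, h.add_left]
    · simp only [hB', mulVec_smul, h.smul_left]
  have hnd' : ∀ x, x ≠ 0 → ∃ y, B' x y ≠ 0 := by
    intro x hx
    obtain ⟨y, hy⟩ := hnd (gi *ᵥ x) (fun h0 => hx (by rw [← hgx' x, h0, mulVec_zero]))
    exact ⟨(g : Matrix ι ι F) *ᵥ y, by simp only [hB', hgx]; exact hy⟩
  -- Siegel elements of Q' belong to M
  have hsieg' : ∀ a b : ι → F, Q' a = 0 → B' a b = 0 → ∃ y ∈ M, ∀ x,
      (y : Matrix ι ι F) *ᵥ x = x + B' x a • b - B' x b • a - (Q' b * B' x a) • a := by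
    intro a b ha hab
    obtain ⟨y, hy, hyx, -⟩ := h.exists_siegel (a := gi *ᵥ a) (b := gi *ᵥ b) ha hab
    refine ⟨g * y * g⁻¹, M.mul_mem (M.mul_mem hgM (hM hy)) (M.inv_mem hgM), fun x => ?_⟩
    rw [Units.val_mul, Units.val_mul, ← mulVec_mulVec, ← mulVec_mulVec, hyx]
    simp only [mulVec_add, mulVec_sub, mulVec_smul]
    rw [← hgi, hgx', hgx', hgx']
  -- Step 1
  obtain ⟨v, hv, hQv⟩ : ∃ v, Q' v = 0 ∧ Q v ≠ 0 := by
    by_contra hcon
    push Not at hcon
    obtain ⟨c, hc⟩ := h'.prop_of_singular h h2 hnd' (by omega) hcon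
    apply hg
    have hc0 : c ≠ 0 := by
      rintro rfl
      obtain ⟨i, -⟩ := exists_pair_ne ι
      have h0 : (Pi.single i 1 : ι → F) ≠ 0 := by
        intro h0
        have := congrFun h0 i
        simp at this
      obtain ⟨x, -, hx⟩ := h.exists_nonsingular ⊤ hndT (x := Pi.single i 1) trivial h0
      apply hx
      rw [hc, zero_mul]
    refine ⟨Units.mk0 c hc0, fun x => ?_⟩
    rw [Units.val_mk0, hc ((g : Matrix ι ι F) *ᵥ x)]
    change c * Q (gi *ᵥ ((g : Matrix ι ι F) *ᵥ x)) = _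
    rw [hgx]
  have hv0 : v ≠ 0 := by
    rintro rfl
    exact hQv h.zero
  have hvv : B v v ≠ 0 := by rw [h.self]; exact mul_ne_zero h2 hQv
  have hvv' : B' v v = 0 := by rw [h'.self, hv, mul_zero]
  -- the space W = v^⊥
  let W := perp B h ⊤ v
  have hWmem : ∀ x, x ∈ W ↔ B x v = 0 := fun x => by rw [mem_perp]; simp
  have hWnd : ∀ x ∈ W, x ≠ 0 → ∃ y ∈ W, B x y ≠ 0 := perp_nd h h2 ⊤ hndT trivial hQv
  have hWdim : 3 ≤ Module.finrank F W := by
    change 3 ≤ Module.finrank F (perp B h ⊤ v)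
    have := perp_finrank h ⊤ v
    rw [finrank_top, Module.finrank_pi] at this
    omega
  obtain ⟨a₀, ha₀, ha₀0, hQa₀⟩ := h.exists_singular h2 W hWnd (by omega)
  obtain ⟨w, hw⟩ := h.exists_rB hnd (rB B' v)
  have hwx : ∀ x, B w x = B' v x := fun x => by rw [← h.rB_dot, hw, h'.rB_dot]
  have hwW : w ∈ W := by rw [hWmem, hwx, hvv']
  have hw0 : w ≠ 0 := by
    rintro rfl
    obtain ⟨y, hy⟩ := hnd' v hv0
    apply hy
    rw [← hwx, h.zero_left]
  obtain ⟨a, ha, hQa, hwa⟩ := h.exists_singular_not_orth W hWnd ha₀ ha₀0 hQa₀ hwW hw0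
  have ha0 : a ≠ 0 := by
    rintro rfl
    exact hwa (h.zero_right w)
  have haa : B a a = 0 := by rw [h.self, hQa, mul_zero]
  have hav : B a v = 0 := (hWmem a).1 ha
  -- b ∈ a^⊥ ∩ W not a multiple of a
  obtain ⟨b, hbW, hab, hba⟩ : ∃ b ∈ W, B a b = 0 ∧ ∀ c : F, b ≠ c • a := by
    obtain ⟨b₁, hb₁, hQb₁, hab₁⟩ := h.exists_hyperbolic W hWnd ha ha0 hQa
    obtain ⟨b, hb0, hb⟩ := exists_ker_family (F := F) (k := 3) (by omega)
      ![rB B v, rB B a, rB B b₁]
    have hb1 : B v b = 0 := by rw [← h.rB_dot]; exact hb 0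
    have hb2 : B a b = 0 := by rw [← h.rB_dot]; exact hb 1
    have hb3 : B b₁ b = 0 := by rw [← h.rB_dot]; exact hb 2
    refine ⟨b, by rw [hWmem, h.comm, hb1], hb2, ?_⟩
    rintro c rfl
    rw [h.smul_right, h.comm, hab₁, mul_one] at hb3
    apply hb0
    rw [hb3, zero_smul]
  have hbv : B b v = 0 := (hWmem b).1 hbW
  obtain ⟨y₀, hy₀, hy₀x, hy₀Q⟩ := h.exists_siegel hQa hab
  have hy₀M := hM hy₀
  -- w' = y₀ w
  set w' := (y₀ : Matrix ι ι F) *ᵥ w with hw'
  have hy₀B : ∀ x y, B ((y₀ : Matrix ι ι F) *ᵥ x) ((y₀ : Matrix ι ι F) *ᵥ y) = B x y := by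
    intro x y
    have h1 := h.add ((y₀ : Matrix ι ι F) *ᵥ x) ((y₀ : Matrix ι ι F) *ᵥ y)
    rw [← mulVec_add, hy₀Q, hy₀Q, hy₀Q, h.add] at h1
    linear_combination -h1
  have hy₀v : (y₀ : Matrix ι ι F) *ᵥ v = v := by
    rw [hy₀x, h.comm v a, hav, h.comm v b, hbv]
    simp
  have hw'prop : ∀ c : F, w' ≠ c • w := by
    intro c hc
    rw [hw', hy₀x] at hc
    have h1 : B (w + B w a • b - B w b • a - (Q b * B w a) • a) a = B (c • w) a := by rw [hc]
    rw [h.sub_left, h.sub_left, h.add_left, h.smul_left, h.smul_left, h.smul_left, h.smul_left,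
      haa, h.comm b a, hab] at h1
    have hc1 : c = 1 := by
      have : (c - 1) * B w a = 0 := by linear_combination -h1
      exact sub_eq_zero.1 ((mul_eq_zero.1 this).resolve_right hwa)
    rw [hc1, one_smul] at hc
    have h3 : B w a • b = (B w b + Q b * B w a) • a := by
      have : w + B w a • b - B w b • a - (Q b * B w a) • a - w = 0 := by rw [hc, sub_self]
      rw [add_smul, ← sub_eq_zero, ← this]
      abel
    apply hba ((B w a)⁻¹ * (B w b + Q b * B w a))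
    rw [← smul_smul, ← h3, smul_smul, inv_mul_cancel₀ hwa, one_smul]
  have hwprop : ∀ c : F, w ≠ c • w' := by
    intro c hc
    have hc0 : c ≠ 0 := by
      rintro rfl
      rw [zero_smul] at hc
      exact hw0 hc
    apply hw'prop c⁻¹
    have h1 : c⁻¹ • w = c⁻¹ • (c • w') := congrArg _ hc
    rw [smul_smul, inv_mul_cancel₀ hc0, one_smul] at h1
    exact h1.symm
  -- the two functionals
  obtain ⟨u₁, hu₁, hu₁'⟩ := exists_ker (φ := rB B w) (ψ := rB B w') (fun c hc => by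
    apply hwprop c
    by_contra hne
    obtain ⟨y, hy⟩ := hnd (w - c • w') (sub_ne_zero.2 hne)
    apply hy
    rw [h.sub_left, h.smul_left, ← h.rB_dot, ← h.rB_dot w', hc, smul_dotProduct, smul_eq_mul,
      sub_self])
  obtain ⟨u₂, hu₂, hu₂'⟩ := exists_ker (φ := rB B w') (ψ := rB B w) (fun c hc => by
    apply hw'prop c
    by_contra hne
    obtain ⟨y, hy⟩ := hnd (w' - c • w) (sub_ne_zero.2 hne)
    apply hy
    rw [h.sub_left, h.smul_left, ← h.rB_dot, ← h.rB_dot w, hc, smul_dotProduct, smul_eq_mul,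
      sub_self])
  rw [h.rB_dot] at hu₁ hu₁' hu₂ hu₂'
  -- `w` and `w'` are linearly independent: a vector `d'`
  have hwv : B w v = 0 := by rw [hwx, hvv']
  set yi : Matrix ι ι F := ((y₀⁻¹ : GL ι F) : Matrix ι ι F) with hyi
  have hyy : ∀ x, yi *ᵥ ((y₀ : Matrix ι ι F) *ᵥ x) = x := inv_mulVec_cancel y₀
  have hyy' : ∀ x, (y₀ : Matrix ι ι F) *ᵥ (yi *ᵥ x) = x := mulVec_inv_cancel y₀
  have hyiv : yi *ᵥ v = v := by
    conv_lhs => rw [← hy₀v]
    exact hyy v
  have hw'x : ∀ x, B w' x = B' v (yi *ᵥ x) := by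
    intro x
    rw [← hwx, ← hy₀B w (yi *ᵥ x), hyy']
  have hw'v : B w' v = 0 := by rw [hw'x, hyiv, hvv']
  -- `d` killed by both, not a multiple of `v`
  obtain ⟨d, hwd, hw'd, hdv⟩ : ∃ d, B w d = 0 ∧ B w' d = 0 ∧ ∀ c : F, d ≠ c • v := by
    obtain ⟨j, hj⟩ : ∃ j, v j ≠ 0 := by
      by_contra hcon
      push Not at hcon
      exact hv0 (funext hcon)
    obtain ⟨k, hk0, hk⟩ := exists_ker_family (F := F) (k := 3) (by omega)
      ![rB B w, rB B w', Pi.single j 1]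
    have hk1 : B w k = 0 := by rw [← h.rB_dot]; exact hk 0
    have hk2 : B w' k = 0 := by rw [← h.rB_dot]; exact hk 1
    have hk3 : k j = 0 := by
      have := hk 2
      simpa using this
    refine ⟨k, hk1, hk2, ?_⟩
    rintro c rfl
    rw [Pi.smul_apply, smul_eq_mul] at hk3
    apply hk0
    rw [(mul_eq_zero.1 hk3).resolve_right hj, zero_smul]
  -- `d'` killed by `w'`, of value one under `w`
  obtain ⟨d', hw'd', hwd'⟩ : ∃ d', B w' d' = 0 ∧ B w d' = 1 := by
    refine ⟨(B w u₁)⁻¹ • u₁, ?_, ?_⟩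
    · rw [h.smul_right, hu₁, mul_zero]
    · rw [h.smul_right, inv_mul_cancel₀ hu₁']
  -- three elements
  have hvd : B' v d = 0 := by rw [← hwx, hwd]
  have hvd1 : B' v (yi *ᵥ d) = 0 := by rw [← hw'x, hw'd]
  have hvd2 : B' v (yi *ᵥ d') = 0 := by rw [← hw'x, hw'd']
  obtain ⟨x₁, hx₁M, hx₁⟩ := hsieg' v d hv hvd
  have hconj : ∀ e, B' v (yi *ᵥ e) = 0 → ∃ y ∈ M, ∀ x, (y : Matrix ι ι F) *ᵥ x = x + B w' x • e -
      (B' (yi *ᵥ x) (yi *ᵥ e) + Q' (yi *ᵥ e) * B w' x) • v := by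
    intro e he
    obtain ⟨x₂, hx₂M, hx₂⟩ := hsieg' v (yi *ᵥ e) hv he
    refine ⟨y₀ * x₂ * y₀⁻¹, M.mul_mem (M.mul_mem hy₀M hx₂M) (M.inv_mem hy₀M), fun x => ?_⟩
    rw [Units.val_mul, Units.val_mul, ← mulVec_mulVec, ← mulVec_mulVec, hx₂, ← hyi]
    simp only [mulVec_add, mulVec_sub, mulVec_smul]
    rw [hyy', hyy', hy₀v, h'.comm (yi *ᵥ x) v, ← hw'x, add_smul]
    abel
  obtain ⟨x₂, hx₂M, hx₂x⟩ := hconj d' hvd2
  obtain ⟨x₃, hx₃M, hx₃x⟩ := hconj d hvd1
  have hx₁x : ∀ x, (x₁ : Matrix ι ι F) *ᵥ x = x + B w x • d -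
      (B' x d + Q' d * B w x) • v := by
    intro x
    rw [hx₁, h'.comm x v, ← hwx, add_smul]
    abel
  -- the transvection
  set k := Q' (yi *ᵥ d) with hk
  obtain ⟨u₃, hu₃⟩ : ∃ u₃, ∀ x, B u₃ x = B' (yi *ᵥ d) (yi *ᵥ x) := by
    obtain ⟨u₃, hu₃⟩ := h.exists_rB hnd ((rB B' (yi *ᵥ d)) ᵥ* yi)
    refine ⟨u₃, fun x => ?_⟩
    rw [← h.rB_dot, hu₃, ← dotProduct_mulVec, h'.rB_dot]
  set m := B' (yi *ᵥ d) (yi *ᵥ d') with hm
  set c₁ := - B' d' d - Q' d - m - k with hc₁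
  set U₀ : ι → F := m • w + c₁ • w' + u₃ with hU₀
  set θ : ι → F := rB B U₀ with hθ
  have hU₀x : ∀ x, B U₀ x = m * B w x + c₁ * B w' x + B' (yi *ᵥ d) (yi *ᵥ x) := by
    intro x
    rw [hU₀, h.add_left, h.add_left, h.smul_left, h.smul_left, hu₃]
  have hθx : ∀ x, θ ⬝ᵥ x = m * B w x + c₁ * B w' x + B' (yi *ᵥ d) (yi *ᵥ x) := by
    intro x
    rw [hθ, h.rB_dot, hU₀x]
  have hθv : θ ⬝ᵥ v = 0 := by
    rw [hθx, hwv, hw'v, hyiv, h'.comm (yi *ᵥ d) v, hvd1]
    ring
  have hkk : B' (yi *ᵥ d) (yi *ᵥ d) = 2 * k := by rw [h'.self]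
  have hT : HasTv M v θ := by
    rw [hasTv_iff]
    refine ⟨hθv, ?_⟩
    have hdd' : B' d d' = B' d' d := h'.comm _ _
    have hvd1' : B' (yi *ᵥ d) v = 0 := by rw [h'.comm, hvd1]
    have hvx2 : B' d v = 0 := by rw [h'.comm, hvd]
    have hm' : B' (yi *ᵥ d') (yi *ᵥ d) = m := by rw [hm]; exact h'.comm _ _
    have heq : tv v θ hθv * (x₃ * (x₂ * x₁)) = x₁ * x₂ := by
      apply gl_ext
      intro x
      rw [Units.val_mul, Units.val_mul, Units.val_mul, Units.val_mul, ← mulVec_mulVec,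
        ← mulVec_mulVec, ← mulVec_mulVec, ← mulVec_mulVec, tv_mulVec]
      simp only [hx₃x, hx₂x, hx₁x, hθx, h.add_right, h.sub_right,
        h.smul_right, hwd, hw'd, hwv, hw'v, hwd', hw'd', mulVec_add, mulVec_sub, mulVec_smul,
        h'.add_left, h'.sub_left, h'.smul_left, h'.add_right, h'.sub_right, h'.smul_right,
        hyiv, hvd, hvd1, hvd2, hkk, ← hk, hvx2, hvd1', h'.comm (yi *ᵥ x) (yi *ᵥ d), ← hm, hm', hdd', hc₁]
      ext i
      simp only [Pi.add_apply, Pi.sub_apply, Pi.smul_apply, smul_eq_mul]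
      ring
    have : tv v θ hθv = x₁ * x₂ * (x₃ * (x₂ * x₁))⁻¹ := by
      rw [← heq, mul_inv_cancel_right]
    rw [this]
    exact M.mul_mem (M.mul_mem hx₁M hx₂M) (M.inv_mem (M.mul_mem hx₃M (M.mul_mem hx₂M hx₁M)))
  have hθ0 : U₀ ≠ 0 := by
    intro h0
    have h3 : ∀ x, m * B w x + c₁ * B w' x + B' (yi *ᵥ d) (yi *ᵥ x) = 0 := by
      intro x
      rw [← hU₀x, h0, h.zero_left]
    have h4' := h3 d'
    rw [hwd', hw'd', ← hm] at h4'
    have hm0 : m = 0 := by
      have : (2 : F) * m = 0 := by linear_combination h4'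
      exact (mul_eq_zero.1 this).resolve_left h2
    -- then `yi d` is a multiple of `v`
    have h5 : ∀ y, B' (yi *ᵥ d + c₁ • v) y = 0 := by
      intro y
      have h6 := h3 ((y₀ : Matrix ι ι F) *ᵥ y)
      rw [hm0, hw'x, hyy] at h6
      rw [h'.add_left, h'.smul_left]
      linear_combination h6
    have h6 : yi *ᵥ d + c₁ • v = 0 := by
      by_contra hne
      obtain ⟨y, hy⟩ := hnd' _ hne
      exact hy (h5 y)
    apply hdv (-c₁)
    have h7 : yi *ᵥ d = (-c₁) • v := by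
      rw [neg_smul]
      exact eq_neg_of_add_eq_zero_left h6
    have h8 := congrArg (fun z => (y₀ : Matrix ι ι F) *ᵥ z) h7
    simp only [mulVec_smul, hyy', hy₀v] at h8
    exact h8
  -- full centre v
  have h3gen : ∀ (U : Submodule F (ι → F)), (∀ x ∈ U, x ≠ 0 → ∃ y ∈ U, B x y ≠ 0) →
      (∀ x, B x v = 0 → x ∈ U) → ∀ a ∈ U, ∃ b ∈ U, ∃ c ∈ U, B a b = 0 ∧ B a c = 0 ∧ B b c ≠ 0 := by
    intro U hU hUv a ha
    -- a vector b ∈ v^⊥ ∩ a^⊥ with Q b ≠ 0
    by_contra hcon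
    push Not at hcon
    have hz : ∀ b, B v b = 0 → B a b = 0 → Q b = 0 := by
      intro b hb hab
      have hbU := hUv b (by rw [h.comm, hb])
      have := hcon b hbU b hbU hab hab
      rw [h.self] at this
      exact (mul_eq_zero.1 this).resolve_left h2
    -- n ≥ 5
    obtain ⟨a', ha'⟩ : ∃ a' : ι → F, ∀ x, B v x = 0 → ∃ s : F, B a (x - s • a') = 0 ∧ B v a' = 0 := by
      by_cases hex : ∃ a', B v a' = 0 ∧ B a a' ≠ 0
      · obtain ⟨a', h1, h3⟩ := hex
        refine ⟨a', fun x _ => ⟨B a x / B a a', ?_, h1⟩⟩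
        rw [h.sub_right, h.smul_right, div_mul_cancel₀ _ h3, sub_self]
      · push Not at hex
        refine ⟨0, fun x hx => ⟨0, ?_, h.zero_right v⟩⟩
        rw [smul_zero, sub_zero]
        exact hex x hx
    obtain ⟨k, hk0, hk⟩ := exists_ker_family (F := F) (k := 3) (by omega)
      ![rB B v, rB B a, rB B a']
    have hk1 : B v k = 0 := by rw [← h.rB_dot]; exact hk 0
    have hk2 : B a k = 0 := by rw [← h.rB_dot]; exact hk 1
    have hk3 : B a' k = 0 := by rw [← h.rB_dot]; exact hk 2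
    obtain ⟨y, hy, hky⟩ := hWnd k (by rw [hWmem, h.comm, hk1]) hk0
    have hyv : B v y = 0 := by rw [h.comm]; exact (hWmem y).1 hy
    obtain ⟨s, hs, hva'⟩ := ha' y hyv
    have h5 : B v (y - s • a') = 0 := by rw [h.sub_right, h.smul_right, hyv, hva']; ring
    have h6 := h.add k (y - s • a')
    rw [hz _ (by rw [h.add_right, hk1, h5, add_zero]) (by rw [h.add_right, hk2, hs, add_zero]),
      hz _ hk1 hk2, hz _ h5 hs, h.sub_right, h.smul_right, h.comm k a', hk3] at h6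
    apply hky
    linear_combination -h6
  have hfull : FullCentre M v := by
    intro φ hφ
    obtain ⟨u, rfl⟩ := h.exists_rB hnd φ
    rw [h.rB_dot] at hφ
    refine (h.irr W hWnd ha₀ ha₀0 hQa₀ (h3gen W hWnd fun x hx => (hWmem x).2 hx)
      {x | HasTv M v (rB B x)} (fun x hx y hy => ?_) (fun x hx => ?_) ?_ ?_ (v := U₀)
      hT hθ0) u ((hWmem u).2 hφ)
    · change HasTv M v (rB B (x + y))
      rw [h.rB_add]
      exact HasTv.add_right hx hy
    · change HasTv M v (rB B (-x))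
      have hx' : HasTv M v (rB B x) := hx
      have h1 := hx'.neg_left
      have h3 := (hasTv_smul_comm M (-1) v (rB B x)).1 (by simpa using h1)
      rw [neg_one_smul, ← h.rB_neg] at h3
      exact h3
    · intro x hx a ha hQa b hb hab
      have hx' : HasTv M v (rB B x) := hx
      obtain ⟨y, hy, hyx, hyQ⟩ := h.exists_siegel hQa hab
      have h1 := hx'.conj (hM hy)
      have hyv : (y : Matrix ι ι F) *ᵥ v = v := by
        rw [hyx, h.comm v a, (hWmem a).1 ha, h.comm v b, (hWmem b).1 hb]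
        simp
      rw [hyv] at h1
      change HasTv M v (rB B (x + B x a • b - B x b • a - (Q b * B x a) • a))
      rw [← hyx]
      convert h1 using 1
      apply dot_ext
      intro z
      rw [← dotProduct_mulVec, h.rB_dot, h.rB_dot]
      have hyB : ∀ p q, B ((y : Matrix ι ι F) *ᵥ p) ((y : Matrix ι ι F) *ᵥ q) = B p q := by
        intro p q
        have h1 := h.add ((y : Matrix ι ι F) *ᵥ p) ((y : Matrix ι ι F) *ᵥ q)
        rw [← mulVec_add, hyQ, hyQ, hyQ, h.add] at h1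
        linear_combination -h1
      conv_lhs => rw [← mulVec_inv_cancel y z]
      rw [hyB]
    · intro x hx
      rw [hWmem, ← h.rB_dot]
      exact hx.1
  -- everything
  apply sl_le_of_centres
  rw [eq_top_iff]
  intro x _
  refine h.irr ⊤ hndT trivial ha₀0 hQa₀ (h3gen ⊤ hndT fun x _ => trivial)
    {x | FullCentre M x} (fun x hx y hy => FullCentre.add hx hy) (fun x hx => ?_) ?_
    (fun _ _ => trivial) (v := v) hfull hv0 x trivial
  · have hx' : FullCentre M x := hx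
    have := hx'.smul (-1)
    rwa [neg_one_smul] at this
  · intro x hx a ha hQa b hb hab
    have hx' : FullCentre M x := hx
    obtain ⟨y, hy, hyx, hyQ⟩ := h.exists_siegel hQa hab
    have h1 := hx'.conj (hM hy)
    rwa [hyx] at h1

/-- **The similarity group of a non-degenerate quadratic form is maximal in `SL_n(q)`, `q` odd,
`n ≥ 4`.** -/
theorem quadratic_similarity_maximal [Finite F] (h2 : (2 : F) ≠ 0) (hn : 4 ≤ Fintype.card ι)
    (hQ : Cfsg.Geo.IsNondegenerateQuadraticForm Q) :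
    Cfsg.Geo.IsMaximalIn (Cfsg.Geo.specialLinear ι F)
      (Cfsg.Geo.quadSimilarityGroup Q ⊓ Cfsg.Geo.specialLinear ι F) := by
  refine ⟨lt_of_le_of_ne inf_le_right fun h => ?_, fun M h1 h2' => ?_⟩
  · exact Cfsg.Agent.H905.not_sl_le_quadSimilarityGroup (by omega) hQ (h ▸ inf_le_left)
  · by_cases hle : M ≤ Cfsg.Geo.quadSimilarityGroup Q
    · left
      exact le_antisymm (le_inf hle h2') h1
    · right
      obtain ⟨g, hgM, hg⟩ := SetLike.not_le_iff_exists.1 hle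
      exact le_antisymm h2' (sl_le_of_quadratic h2 hn hQ h1 hgM hg)

end Cfsg.Agent.H827.SimOFour
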