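import Cfsg.Agent.H827.C6SL
import Cfsg.Agent.H827.MonoFour
import Cfsg.Agent.H827.SimOFour
import Cfsg.Agent.H827.ExtFour
import Cfsg.Agent.H929.SLGeo
import Cfsg.Agent.S0280

/-!
# Maximal subgroups of `SL_4(q)` of geometric type: assembly from the residual class
-/

set_option autoImplicit false

universe u

namespace Cfsg.Agent.H827.S5780Asm

open Cfsg Cfsg.Geo
open scoped MatrixGroups

variable {F : Type u} [Field F] [Fintype F]

theorem exists_delta (h4 : 4 ≤ Fintype.card F) : ∃ δ : Fˣ, δ * δ ≠ 1 := by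
  by_contra hcon
  push Not at hcon
  have h1 : ∀ x : F, x = 0 ∨ x = 1 ∨ x = -1 := by
    intro x
    by_cases h0 : x = 0
    · exact Or.inl h0
    · right
      have := congrArg Units.val (hcon (Units.mk0 x h0))
      rw [Units.val_mul, Units.val_one, Units.val_mk0] at this
      exact mul_self_eq_one_iff.1 this
  classical
  have h2 : (Finset.univ : Finset F) ⊆ {0, 1, -1} := by
    intro x _
    simpa using h1 x
  have h3 := (Finset.card_le_card h2).trans (Finset.card_le_three)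
  rw [Finset.card_univ] at h3
  omega

theorem card_psu_four {K : Type*} [Field K] [Fintype K] (hK : Fintype.card K = 4) :
    Nat.card (Cfsg.PSU 4 K 2) = 25920 := by
  have h := S0280.result (F := K) (q := 2) (by rw [hK]; norm_num) 4 (by norm_num)
  simp [Finset.prod_range_succ, Nat.even_iff] at h
  omega

theorem card_alt_seven : Nat.card (alternatingGroup (Fin 7)) = 2520 := by
  rw [nat_card_alternatingGroup, Nat.card_eq_fintype_card, Fintype.card_fin]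
  rfl

theorem not_dvd_of_res (H : Subgroup (GL (Fin 4) F))
    (h : ∃ (P : Subgroup (Matrix.GeneralLinearGroup (Fin 4) F)) (p : ℕ), Cfsg.Geo.IsResidualCore H P ∧ p.Prime ∧ Fintype.card F = p ∧
    ((Nonempty ((P ⧸ (Cfsg.Geo.scalars (Fin 4) F).subgroupOf P) ≃* alternatingGroup (Fin 7)) ∧ (p = 2 ∨ p % 7 = 1 ∨ p % 7 = 2 ∨ p % 7 = 4)) ∨
     ((∃ (K : Type) (_ : Field K) (_ : Fintype K), Fintype.card K = 4 ∧ Nonempty ((P ⧸ (Cfsg.Geo.scalars (Fin 4) F).subgroupOf P) ≃* Cfsg.PSU 4 K 2)) ∧ p % 6 = 1))) :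
    ∃ P, IsResidualCore H P ∧ ¬ 5760 ∣ Nat.card (P ⧸ (scalars (Fin 4) F).subgroupOf P) := by
  obtain ⟨P, p, hP, -, -, ⟨⟨e⟩, -⟩ | ⟨⟨K, iK, iF, hK, ⟨e⟩⟩, -⟩⟩ := h
  · refine ⟨P, hP, ?_⟩
    rw [Nat.card_congr e.toEquiv, card_alt_seven]
    norm_num
  · refine ⟨P, hP, ?_⟩
    rw [Nat.card_congr e.toEquiv, card_psu_four hK]
    norm_num

theorem sl4_of_residual
    (hSch : ∀ (K : Type u) [Group K] [Finite K] [IsSimpleGroup K], ¬ IsMulCommutative K → Schreier.Basic.Sch K)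
    (hres : ∀ H : Subgroup (GL (Fin 4) F), IsMaximalIn (specialLinear (Fin 4) F) H → InLinearResidualClass H →
      ∃ P, IsResidualCore H P ∧ ¬ 5760 ∣ Nat.card (P ⧸ (scalars (Fin 4) F).subgroupOf P)) :
    (∀ W : Submodule F (Fin 4 → F), W ≠ ⊥ → W ≠ ⊤ → Cfsg.Geo.IsMaximalIn (Cfsg.Geo.specialLinear (Fin 4) F) (Cfsg.Geo.subspaceStabilizer W ⊓ Cfsg.Geo.specialLinear (Fin 4) F)) ∧
    (7 ≤ Fintype.card F → ∀ D : Fin 4 → Submodule F (Fin 4 → F), Cfsg.Geo.IsMDecomposition 1 D → Cfsg.Geo.IsMaximalIn (Cfsg.Geo.specialLinear (Fin 4) F) (Cfsg.Geo.decompositionStabilizer D ⊓ Cfsg.Geo.specialLinear (Fin 4) F)) ∧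
    (4 ≤ Fintype.card F → ∀ D : Fin 2 → Submodule F (Fin 4 → F), Cfsg.Geo.IsMDecomposition 2 D → Cfsg.Geo.IsMaximalIn (Cfsg.Geo.specialLinear (Fin 4) F) (Cfsg.Geo.decompositionStabilizer D ⊓ Cfsg.Geo.specialLinear (Fin 4) F)) ∧
    (∀ K : Subalgebra F (Matrix (Fin 4) (Fin 4) F), Cfsg.Geo.IsFieldSubalgebra 2 K → Cfsg.Geo.IsMaximalIn (Cfsg.Geo.specialLinear (Fin 4) F) (Cfsg.Geo.subalgebraNormalizer K ⊓ Cfsg.Geo.specialLinear (Fin 4) F)) ∧
    (∀ (F₀ : Subfield F) (r : ℕ) (P : Matrix.GeneralLinearGroup (Fin 4) F), r.Prime → Fintype.card F = Nat.card F₀ ^ r → Cfsg.Geo.IsMaximalIn (Cfsg.Geo.specialLinear (Fin 4) F) (Cfsg.Geo.subfieldSubgroup F₀ P ⊓ Cfsg.Geo.specialLinear (Fin 4) F)) ∧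
    (∀ (p : ℕ) (R : Subgroup (Matrix.GeneralLinearGroup (Fin 4) F)), p.Prime → Fintype.card F = p → p % 4 = 1 → Cfsg.Geo.IsLinearSymplecticTypeData 2 R → Cfsg.Geo.IsMaximalIn (Cfsg.Geo.specialLinear (Fin 4) F) (Cfsg.Geo.subgroupNormalizer R ⊓ Cfsg.Geo.specialLinear (Fin 4) F)) ∧
    (Odd (Fintype.card F) → ∀ Q : (Fin 4 → F) → F, Cfsg.Geo.IsNondegenerateQuadraticForm Q → Cfsg.Geo.IsMaximalIn (Cfsg.Geo.specialLinear (Fin 4) F) (Cfsg.Geo.quadSimilarityGroup Q ⊓ Cfsg.Geo.specialLinear (Fin 4) F)) ∧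
    (∀ f : (Fin 4 → F) → (Fin 4 → F) → F, Cfsg.Geo.IsSymplecticForm f → Cfsg.Geo.IsMaximalIn (Cfsg.Geo.specialLinear (Fin 4) F) (Cfsg.Geo.similarityGroup f ⊓ Cfsg.Geo.specialLinear (Fin 4) F)) ∧
    (∀ (σ : F ≃+* F) (f : (Fin 4 → F) → (Fin 4 → F) → F), Cfsg.Geo.IsUnitaryForm σ f → Cfsg.Geo.IsMaximalIn (Cfsg.Geo.specialLinear (Fin 4) F) (Cfsg.Geo.similarityGroup f ⊓ Cfsg.Geo.specialLinear (Fin 4) F)) := by
  have hn : Fintype.card (Fin 4) = 4 := Fintype.card_fin 4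
  have : Nontrivial (Fin 4) := Fintype.one_lt_card_iff_nontrivial.1 (by omega)
  refine ⟨?_, ?_, ?_, ?_, ?_, ?_, ?_, ?_, ?_⟩
  · intro W h0 h1
    exact Cfsg.Agent.H871.subspaceStabilizer_maximal W h0 h1
  · intro h7 D hD
    exact Cfsg.Agent.H871.decomp_maximal_one hD fun M hM hMS =>
      Cfsg.Agent.H827.MonoFour.sl_monomial_four hM hMS (by rw [Nat.card_eq_fintype_card]; exact h7)
  · intro h4 D hD
    exact Cfsg.Agent.H871.decomp_maximal_two hD le_rfl (Or.inr (Or.inl (exists_delta h4)))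
  · intro K hK
    by_cases h2 : Fintype.card F = 2
    · exact Cfsg.Agent.H827.ExtFour.ext_isMaximalIn h2 hK
    · exact Cfsg.Agent.H923.ext_isMaximalIn (by norm_num) hK (by omega) (by
        have : 1 < Fintype.card F := Fintype.one_lt_card
        omega)
  · intro F₀ r P hr hc
    exact Cfsg.Agent.H873.Sub.maximal (by omega) F₀ hr hc P
  · intro p R hp hF _ hR
    exact Cfsg.Agent.H827.CF.sl4_c6_maximal hp hF hR hSch hres
  · intro hodd Q hQ
    exact Cfsg.Agent.H827.SimOFour.quadratic_similarity_maximal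
      (Cfsg.Agent.S5644.two_ne_zero_of_odd hodd) (by omega) hQ
  · intro f hf
    exact Cfsg.Agent.H929.symplectic_similarity_maximal (by omega) hf
  · intro σ f hf
    exact Cfsg.Agent.H929.unitary_similarity_maximal (by omega) hf

end Cfsg.Agent.H827.S5780Asm
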