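import Cfsg.Agent.H827.FStar

/-!
# Four-groups with quasisimple centralizer (helper827)

`TD Φ E` : `E` is a four-group of `G`, `C(E)` is perfect and `C(E)/E ≅ Φ`.
-/

set_option autoImplicit false

namespace Cfsg.Agent.H827.TripleAbs

open Subgroup Cfsg

universe u v

/-- `C(E)` is a perfect extension of `Φ` by the four-group `E` -/
structure TD (Φ : Type v) [Group Φ] {G : Type u} [Group G] (E : Subgroup G) : Prop where
  sq : ∀ x ∈ E, x * x = 1
  comm : ∀ x ∈ E, ∀ y ∈ E, x * y = y * x
  card : Nat.card ↥E = 4
  perf : commutator ↥(centralizer (E : Set G)) = ⊤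
  map : ∃ π : ↥(centralizer (E : Set G)) →* Φ, Function.Surjective π ∧ ∀ x, π x = 1 ↔ (x : G) ∈ E

/-- three central elements -/
theorem perfect_of_three {C : Type*} [Group C] {u v : C} (hu : u * u = 1)
    (h1 : ∀ x : C, x ∈ commutator C ∨ x * u ∈ commutator C) (h2 : ∀ x : C, x ∈ commutator C ∨ x * v ∈ commutator C)
    (h3 : ∀ x : C, x ∈ commutator C ∨ x * (u * v) ∈ commutator C) : commutator C = ⊤ := by
  rw [eq_top_iff]
  intro x _
  by_contra hx
  have e1 := (h1 x).resolve_left hx
  have e2 := (h2 x).resolve_left hx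
  have e3 := (h3 x).resolve_left hx
  have e4 := mul_mem (inv_mem e1) e2
  have e5 : (x * u)⁻¹ * (x * v) = u * v := by
    have hu' : u⁻¹ = u := inv_eq_of_mul_eq_one_left hu
    rw [mul_inv_rev, hu']
    group
  rw [e5] at e4
  have e6 := mul_mem e3 (inv_mem e4)
  rw [mul_inv_cancel_right] at e6
  exact hx e6

/-- `C = [C, C]⟨u⟩` if `C` maps onto a perfect group with kernel `{1, u}` -/
theorem comm_or {C D : Type*} [Group C] [Group D] (ρ : C →* D) (hs : Function.Surjective ρ)
    (hD : commutator D = ⊤) {u : C} (hu : u * u = 1) (hk : ∀ x, ρ x = 1 → x = 1 ∨ x = u) (x : C) :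
    x ∈ commutator C ∨ x * u ∈ commutator C := by
  have h1 : ρ x ∈ (commutator C).map ρ := by
    rw [commutator_def, map_commutator, ← MonoidHom.range_eq_map, MonoidHom.range_eq_top.2 hs, ← commutator_def, hD]
    trivial
  obtain ⟨y, hy, hxy⟩ := h1
  have h2 : ρ (y⁻¹ * x) = 1 := by rw [map_mul, map_inv, hxy, inv_mul_cancel]
  rcases hk _ h2 with h | h
  · left
    rw [inv_mul_eq_one] at h
    rw [← h]
    exact hy
  · right
    rw [inv_mul_eq_iff_eq_mul] at h
    rw [h, mul_assoc, hu, mul_one]
    exact hy

namespace TD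

variable {Φ : Type v} [Group Φ] {G : Type u} [Group G] {E : Subgroup G} (D : TD Φ E)

include D

theorem le : E ≤ centralizer (E : Set G) := fun x hx => mem_centralizer_iff.2 fun y hy => D.comm y hy x hx

theorem elem : IsElementaryAbelian 2 E := by
  refine ⟨⟨⟨?_⟩⟩, ?_⟩
  · rintro ⟨a, ha⟩ ⟨b, hb⟩
    exact Subtype.ext (D.comm a ha b hb)
  · intro a ha
    rw [pow_two, D.sq a ha]

theorem sub_normal : (E.subgroupOf (centralizer (E : Set G))).Normal := by
  constructor
  intro n hn c
  rw [mem_subgroupOf] at hn ⊢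
  have h1 := mem_centralizer_iff.1 c.2 n hn
  have h2 : ((c * n * c⁻¹ : ↥(centralizer (E : Set G))) : G) = n := by
    show (c : G) * n * (c : G)⁻¹ = n
    rw [← h1, mul_inv_cancel_right]
  rw [h2]
  exact hn

/-- transport -/
theorem comap {H : Type*} [Group H] (e : H ≃* G) : TD Φ (E.comap e.toMonoidHom) := by
  have hc : ∀ x : H, x ∈ centralizer ((E.comap e.toMonoidHom : Subgroup H) : Set H) ↔
      e x ∈ centralizer (E : Set G) := by
    intro x
    rw [mem_centralizer_iff, mem_centralizer_iff]
    constructor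
    · intro h y hy
      have h1 := h (e.symm y) (by
        show e (e.symm y) ∈ E
        rw [e.apply_symm_apply]
        exact hy)
      have h2 := congrArg e h1
      rwa [map_mul, map_mul, e.apply_symm_apply] at h2
    · intro h y hy
      apply e.injective
      rw [map_mul, map_mul]
      exact h _ hy
  let f : ↥(centralizer ((E.comap e.toMonoidHom : Subgroup H) : Set H)) ≃* ↥(centralizer (E : Set G)) :=
    { toFun := fun x => ⟨e x, (hc x).1 x.2⟩
      invFun := fun y => ⟨e.symm y, (hc _).2 (by rw [e.apply_symm_apply]; exact y.2)⟩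
      left_inv := fun x => Subtype.ext (e.symm_apply_apply _)
      right_inv := fun y => Subtype.ext (e.apply_symm_apply _)
      map_mul' := fun x y => Subtype.ext (map_mul e _ _) }
  refine ⟨?_, ?_, ?_, ?_, ?_⟩
  · intro x hx
    apply e.injective
    rw [map_mul, map_one]
    exact D.sq _ hx
  · intro x hx y hy
    apply e.injective
    rw [map_mul, map_mul]
    exact D.comm _ hx _ hy
  · rw [← D.card]
    exact Nat.card_congr
      { toFun := fun x => ⟨e x, x.2⟩
        invFun := fun y => ⟨e.symm y, by
          show e (e.symm y) ∈ E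
          rw [e.apply_symm_apply]
          exact y.2⟩
        left_inv := fun x => Subtype.ext (e.symm_apply_apply _)
        right_inv := fun y => Subtype.ext (e.apply_symm_apply _) }
  · have h1 : (commutator ↥(centralizer (E : Set G))).map f.symm.toMonoidHom = commutator _ := by
      rw [commutator_def, map_commutator, ← MonoidHom.range_eq_map,
        MonoidHom.range_eq_top.2 f.symm.surjective, ← commutator_def]
    rw [← h1, D.perf, ← MonoidHom.range_eq_map]
    exact MonoidHom.range_eq_top.2 f.symm.surjective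
  · obtain ⟨π, h1, h2⟩ := D.map
    refine ⟨π.comp f.toMonoidHom, h1.comp f.surjective, fun x => ?_⟩
    show π (f x) = 1 ↔ _
    rw [h2]
    rfl

theorem quo (hn : (E.subgroupOf (centralizer (E : Set G))).Normal) :
    Nonempty (↥(centralizer (E : Set G)) ⧸ E.subgroupOf (centralizer (E : Set G)) ≃* Φ) := by
  obtain ⟨π, h1, h2⟩ := D.map
  have h3 : E.subgroupOf (centralizer (E : Set G)) = π.ker := by
    ext x
    rw [MonoidHom.mem_ker, h2, mem_subgroupOf]
  exact ⟨(QuotientGroup.quotientMulEquivOfEq h3).trans (QuotientGroup.quotientKerEquivOfSurjective π h1)⟩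

theorem quasi (hs : IsSimpleGroup Φ) (hc : center Φ = ⊥) : IsQuasisimple ↥(centralizer (E : Set G)) := by
  obtain ⟨π, h1, h2⟩ := D.map
  have hz : center ↥(centralizer (E : Set G)) = π.ker := by
    apply le_antisymm
    · intro x hx
      rw [MonoidHom.mem_ker]
      have : π x ∈ center Φ := by
        rw [mem_center_iff]
        intro y
        obtain ⟨w, rfl⟩ := h1 y
        rw [← map_mul, ← map_mul, mem_center_iff.1 hx w]
      rw [hc] at this
      exact this
    · intro x hx
      rw [MonoidHom.mem_ker, h2] at hx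
      rw [mem_center_iff]
      intro y
      apply Subtype.ext
      exact (mem_centralizer_iff.1 y.2 _ hx).symm
  refine ⟨Group.isPerfect_def.2 D.perf, ?_⟩
  exact ((QuotientGroup.quotientMulEquivOfEq hz).trans
    (QuotientGroup.quotientKerEquivOfSurjective π h1)).isSimpleGroup

end TD

end Cfsg.Agent.H827.TripleAbs
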