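import Cfsg.Agent.KFacts.FiTF.SheetF
import Cfsg.Agent.KFacts.FiTF.QuasiBInst
import Cfsg.Agent.KFacts.FiTF.SubOrb
import Cfsg.Agent.H827.Trans

/-!
# The normal subgroup of order 3 of `E / R` in `Fi24'` (helper827)

A copy of the parts of `PreUniq/Fi24S.lean` which do not use the order table (and of `exists_fixed_lift` of
`LThreeFi24/Comp.lean`): the subgroup `Zc` of the elements of `E` central modulo `R`, its action on the tetrads of `z`.
-/

set_option autoImplicit false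

namespace Cfsg.Agent.H827.ZLoc

open Cfsg Cfsg.Spor Subgroup Cfsg.Agent.KFacts.FiTF Cfsg.Agent.KFacts.FiTF.Defs
open Cfsg.Agent.R08.FiTwentyFour (L)
open Cfsg.Agent.R08.TetTwo (IsTet Mate)
open Cfsg.Agent.KFacts.FiTF.QuasiA (Fixes)
open scoped commutatorElement

theorem conj_mul {F : Type*} [Group F] (g a b : F) : g * (a * b) * g⁻¹ = g * a * g⁻¹ * (g * b * g⁻¹) := by group

/-- normal subgroups of `E` containing `R` -/
theorem dich (N : Subgroup Spor.Fi24) (hN : N ≤ E) (hR : R ≤ N) (hn : ∀ e ∈ E, ∀ n ∈ N, e * n * e⁻¹ ∈ N) :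
    (∀ n ∈ N, Fixes n) ∨ N = E := by
  have : Finite Spor.Fi24 := Cfsg.Agent.R08.FiTwentyFour.finite_Fi24
  exact (QuasiBInst.hyp FixZ.tran FixZ.ncard_Dz Order.card (Cent.cent FixZ.tran) (PerfE.perf FixZ.tran)
    (fun M h1 h2 h3 => QuasiA.dichW h2 h3 FixZ.tran SubOrb.quasi1 SubOrb.quasi2 h1)).dich_E hN hR hn

theorem R_norm {g : Spor.Fi24} (hg : g * z = z * g) {r : Spor.Fi24} (hr : r ∈ R) : g * r * g⁻¹ ∈ R :=
  frame.norm g hg r hr

theorem E_z {g : Spor.Fi24} (hg : g ∈ E) : g * z = z * g := frame.Ez g hg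

theorem z_comm_inv {g : Spor.Fi24} (hg : g * z = z * g) : g⁻¹ * z = z * g⁻¹ :=
  ((show Commute g z from hg).inv_left).eq

/-- the elements of `E` central modulo `R` -/
def Zc : Subgroup Spor.Fi24 where
  carrier := {g | g ∈ E ∧ ∀ y ∈ E, ⁅g, y⁆ ∈ R}
  one_mem' := ⟨E.one_mem, fun y _ => by rw [commutatorElement_one_left]; exact R.one_mem⟩
  mul_mem' := by
    rintro a b ⟨ha, ha'⟩ ⟨hb, hb'⟩
    refine ⟨mul_mem ha hb, fun y hy => ?_⟩
    have e1 : ⁅a * b, y⁆ = (a * ⁅b, y⁆ * a⁻¹) * ⁅a, y⁆ := by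
      simp only [commutatorElement_def]; group
    rw [e1]
    exact mul_mem (R_norm (E_z ha) (hb' y hy)) (ha' y hy)
  inv_mem' := by
    rintro a ⟨ha, ha'⟩
    refine ⟨inv_mem ha, fun y hy => ?_⟩
    have e1 : ⁅a⁻¹, y⁆ = a⁻¹ * (⁅a, y⁆)⁻¹ * a⁻¹⁻¹ := by
      simp only [commutatorElement_def]; group
    rw [e1]
    exact R_norm (E_z (inv_mem ha)) (inv_mem (ha' y hy))

theorem mem_Zc {g : Spor.Fi24} : g ∈ Zc ↔ g ∈ E ∧ ∀ y ∈ E, ⁅g, y⁆ ∈ R := Iff.rfl

theorem Zc_le : Zc ≤ E := fun _ h => h.1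

theorem R_le_Zc : R ≤ Zc := fun r hr => ⟨frame.RE hr, fun y hy => by
  rw [commutatorElement_def]
  have e1 : r * y * r⁻¹ * y⁻¹ = r * (y * r⁻¹ * y⁻¹) := by group
  rw [e1]
  exact mul_mem hr (R_norm (E_z hy) (inv_mem hr))⟩

theorem Zc_norm {g : Spor.Fi24} (hg : g * z = z * g) {n : Spor.Fi24} (hn : n ∈ Zc) : g * n * g⁻¹ ∈ Zc := by
  refine ⟨PerfE.conj_E hg n hn.1, fun y hy => ?_⟩
  have e1 : ⁅g * n * g⁻¹, y⁆ = g * ⁅n, g⁻¹ * y * g⁻¹⁻¹⁆ * g⁻¹ := by
    simp only [commutatorElement_def]; group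
  rw [e1]
  exact R_norm hg (hn.2 _ (PerfE.conj_E (z_comm_inv hg) y hy))

theorem Zc_ne : Zc ≠ E := by
  have : Finite Spor.Fi24 := Cfsg.Agent.R08.FiTwentyFour.finite_Fi24
  intro h
  have h1 : E ≤ R := by
    conv_lhs => rw [← frame.perf]
    rw [commutator_le]
    intro a ha b hb
    rw [← h] at ha
    exact ha.2 b hb
  have h2 := card_le_of_le h1
  rw [frame.cardR] at h2
  have h3 := SheetMFi.card_E
  omega

/-- **the elements of `Zc` fix all the tetrads** -/
theorem small : ∀ n ∈ Zc, Fixes n := by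
  rcases dich Zc Zc_le R_le_Zc (fun e he n hn => Zc_norm (E_z he) hn) with h | h
  · exact h
  · exact absurd h Zc_ne

theorem mem_Zc_of_fixes {n : Spor.Fi24} (hn : n ∈ E) (h : Fixes n) : n ∈ Zc :=
  ⟨hn, fun y hy => by
    rw [commutatorElement_def]
    exact SheetMFi.fixes_R FixZ.tran h y hy⟩

/-! ### `R` is the kernel of the action on `R / ⟨z⟩` -/

theorem zz : z * z = 1 := frame.zz

theorem z_inv : (z : Spor.Fi24)⁻¹ = z := inv_eq_of_mul_eq_one_left zz

theorem Rz {r : Spor.Fi24} (hr : r ∈ R) : r * z = z * r := E_z (frame.RE hr)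

/-- the elements acting trivially on `R / ⟨z⟩` -/
def Ker : Subgroup Spor.Fi24 where
  carrier := {g | g * z = z * g ∧ ∀ r ∈ R, g * r * g⁻¹ = r ∨ g * r * g⁻¹ = z * r}
  one_mem' := ⟨by rw [one_mul, mul_one], fun r _ => Or.inl (by group)⟩
  mul_mem' := by
    rintro a b ⟨ha, ha'⟩ ⟨hb, hb'⟩
    refine ⟨by rw [mul_assoc, hb, ← mul_assoc, ha, mul_assoc], fun r hr => ?_⟩
    have e1 : a * b * r * (a * b)⁻¹ = a * (b * r * b⁻¹) * a⁻¹ := by group
    rw [e1]
    rcases hb' r hr with h | h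
    · rw [h]; exact ha' r hr
    · rw [h]
      have e2 : a * (z * r) * a⁻¹ = z * (a * r * a⁻¹) := by
        rw [← mul_assoc, ha]; group
      rw [e2]
      rcases ha' r hr with h' | h'
      · rw [h']; exact Or.inr rfl
      · rw [h', ← mul_assoc, zz, one_mul]; exact Or.inl rfl
  inv_mem' := by
    rintro a ⟨ha, ha'⟩
    refine ⟨z_comm_inv ha, fun r hr => ?_⟩
    rcases ha' _ (R_norm (z_comm_inv ha) hr) with h | h
    · left
      have e1 : a * (a⁻¹ * r * a⁻¹⁻¹) * a⁻¹ = r := by group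
      rw [e1] at h
      exact h.symm
    · right
      have e1 : a * (a⁻¹ * r * a⁻¹⁻¹) * a⁻¹ = r := by group
      rw [e1] at h
      calc a⁻¹ * r * a⁻¹⁻¹ = z * (z * (a⁻¹ * r * a⁻¹⁻¹)) := by rw [← mul_assoc z z, zz, one_mul]
        _ = z * r := by rw [← h]

theorem R_le_Ker : R ≤ Ker := fun r hr => ⟨Rz hr, fun s hs => by
  rcases frame.com r hr s hs with h | h
  · left; rw [h]; group
  · right; rw [h]; group⟩

theorem mem_Ker {g : Spor.Fi24} : g ∈ Ker ↔ g * z = z * g ∧ ∀ r ∈ R, g * r * g⁻¹ = r ∨ g * r * g⁻¹ = z * r := Iff.rfl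

theorem card_Ker : Nat.card Ker ≤ 8192 := by
  classical
  have : Finite Spor.Fi24 := Cfsg.Agent.R08.FiTwentyFour.finite_Fi24
  -- the commutators with the generators
  let A : Subgroup Spor.Fi24 := zpowers z
  have hA : ∀ a ∈ A, a = 1 ∨ a = z := by
    intro a ha
    obtain ⟨k, rfl⟩ := mem_zpowers_iff.1 ha
    have hz2 : (z : Spor.Fi24) ^ (2 : ℤ) = 1 := by
      rw [show (2 : ℤ) = ((2 : ℕ) : ℤ) from rfl, zpow_natCast, pow_two, zz]
    rcases Int.even_or_odd' k with ⟨m, rfl | rfl⟩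
    · left; rw [zpow_mul, hz2, one_zpow]
    · right; rw [zpow_add, zpow_mul, hz2, one_zpow, one_mul, zpow_one]
  have hcomm : ∀ g ∈ Ker, ∀ r ∈ R, ⁅g, r⁆ ∈ A := by
    intro g hg r hr
    rw [commutatorElement_def]
    rcases hg.2 r hr with h | h
    · rw [h, mul_inv_cancel]; exact A.one_mem
    · rw [h, mul_assoc, mul_inv_cancel, mul_one]; exact mem_zpowers z
  have hAc : IsMulCommutative A := inferInstance
  let f : ↥Ker →* (Fin 12 → ↥A) :=
    { toFun := fun g j => ⟨⁅(g : Spor.Fi24), x j⁆, hcomm g g.2 _ (RQ.x_mem j.2)⟩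
      map_one' := by
        funext j
        apply Subtype.ext
        exact commutatorElement_one_left _
      map_mul' := by
        intro a b
        funext j
        apply Subtype.ext
        show ⁅(a : Spor.Fi24) * b, x j⁆ = ⁅(a : Spor.Fi24), x j⁆ * ⁅(b : Spor.Fi24), x j⁆
        have h1 : ⁅(a : Spor.Fi24) * b, x j⁆ = (a * ⁅(b : Spor.Fi24), x j⁆ * (a : Spor.Fi24)⁻¹) * ⁅(a : Spor.Fi24), x j⁆ := by
          simp only [commutatorElement_def]; group
        rw [h1]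
        have h2 := hA _ (hcomm b b.2 _ (RQ.x_mem j.2))
        have h3 := hA _ (hcomm a a.2 _ (RQ.x_mem j.2))
        have h4 : (a : Spor.Fi24) * ⁅(b : Spor.Fi24), x j⁆ * (a : Spor.Fi24)⁻¹ = ⁅(b : Spor.Fi24), x j⁆ := by
          rcases h2 with h2 | h2
          · rw [h2, mul_one, mul_inv_cancel]
          · rw [h2, a.2.1]; group
        rw [h4]
        rcases h2 with h2 | h2
        · rw [h2, one_mul, mul_one]
        · rcases h3 with h3 | h3
          · rw [h3, one_mul, mul_one]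
          · rw [h2, h3] }
  have hker : ∀ g : ↥Ker, g ∈ f.ker → (g : Spor.Fi24) = 1 ∨ (g : Spor.Fi24) = z := by
    intro g hg
    apply frame.cent
    have h1 : R ≤ centralizer ({(g : Spor.Fi24)} : Set Spor.Fi24) := by
      unfold R KFacts.Codes.RG
      rw [closure_le]
      rintro r (rfl | ⟨j, hj, rfl⟩)
      · exact mem_centralizer_singleton_iff.2 g.2.1.symm
      · have h2 : f g ⟨j, hj⟩ = 1 := congrFun (MonoidHom.mem_ker.1 hg) ⟨j, hj⟩
        have h3 : ⁅(g : Spor.Fi24), x j⁆ = 1 := congrArg Subtype.val h2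
        exact mem_centralizer_singleton_iff.2 (commutatorElement_eq_one_iff_mul_comm.1 h3).symm
    exact fun r hr => (mem_centralizer_singleton_iff.1 (h1 hr)).symm
  have hk2 : Nat.card f.ker ≤ 2 := by
    let i : f.ker → Bool := fun g => decide (((g : ↥Ker) : Spor.Fi24) = 1)
    have hi : Function.Injective i := by
      intro a b hab
      apply Subtype.ext
      apply Subtype.ext
      have h1 : ((((a : ↥Ker) : Spor.Fi24) = 1) ↔ (((b : ↥Ker) : Spor.Fi24) = 1)) := by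
        have := hab
        simp only [i, decide_eq_decide] at this
        exact this
      rcases hker a a.2 with h2 | h2
      · rw [h2, (h1.1 h2)]
      · rcases hker b b.2 with h3 | h3
        · rw [h3, (h1.2 h3)]
        · rw [h2, h3]
    have := Nat.card_le_card_of_injective i hi
    rwa [Nat.card_eq_fintype_card (α := Bool), Fintype.card_bool] at this
  have hA2 : Nat.card A = 2 := by
    rw [Nat.card_zpowers]
    exact orderOf_eq_prime (by rw [pow_two, zz]) frame.z1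
  have hr : Nat.card f.range ≤ 2 ^ 12 := by
    have h1 : Nat.card f.range ≤ Nat.card (Fin 12 → ↥A) := Nat.card_le_card_of_injective _ Subtype.val_injective
    rwa [Nat.card_fun, hA2, Nat.card_eq_fintype_card (α := Fin 12), Fintype.card_fin] at h1
  have h1 : Nat.card ↥Ker = Nat.card f.ker * Nat.card f.range := by
    rw [← Nat.card_congr (QuotientGroup.quotientKerEquivRange f).toEquiv, mul_comm]
    exact Subgroup.card_eq_card_quotient_mul_card_subgroup f.ker
  rw [h1]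
  calc Nat.card f.ker * Nat.card f.range ≤ 2 * 2 ^ 12 := Nat.mul_le_mul hk2 hr
    _ = 8192 := by norm_num

theorem Ker_eq : Ker = R := by
  have : Finite Spor.Fi24 := Cfsg.Agent.R08.FiTwentyFour.finite_Fi24
  refine (eq_of_le_of_card_ge R_le_Ker ?_).symm
  rw [frame.cardR]
  exact card_Ker

/-- an element of `Zc` fixing a noncentral element of `R` modulo `z` lies in `R` -/
theorem mem_R_of_fix {s t : Spor.Fi24} (hs : s ∈ Zc) (ht : t ∈ R) (h1 : t ≠ 1) (hz : t ≠ z)
    (h : s * t * s⁻¹ = t ∨ s * t * s⁻¹ = z * t) : s ∈ R := by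
  have hsz := E_z hs.1
  let B : Subgroup Spor.Fi24 :=
    { carrier := {r | r ∈ R ∧ (s * r * s⁻¹ = r ∨ s * r * s⁻¹ = z * r)}
      one_mem' := ⟨R.one_mem, Or.inl (by group)⟩
      mul_mem' := by
        rintro a b ⟨ha, ha'⟩ ⟨hb, hb'⟩
        refine ⟨R.mul_mem ha hb, ?_⟩
        have e1 : s * (a * b) * s⁻¹ = (s * a * s⁻¹) * (s * b * s⁻¹) := by group
        rw [e1]
        have hza : z * a = a * z := (Rz ha).symm
        rcases ha' with h | h <;> rcases hb' with h' | h' <;> rw [h, h']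
        · exact Or.inl rfl
        · right; rw [← mul_assoc, ← hza, mul_assoc]
        · right; rw [mul_assoc]
        · left
          calc z * a * (z * b) = z * (a * z) * b := by group
            _ = (z * z) * (a * b) := by rw [← hza]; group
            _ = a * b := by rw [zz, one_mul]
      inv_mem' := by
        rintro a ⟨ha, ha'⟩
        refine ⟨R.inv_mem ha, ?_⟩
        have e1 : s * a⁻¹ * s⁻¹ = (s * a * s⁻¹)⁻¹ := by group
        rw [e1]
        have hza : z * a⁻¹ = a⁻¹ * z := (Rz (R.inv_mem ha)).symm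
        rcases ha' with h | h
        · left; rw [h]
        · right; rw [h, mul_inv_rev, z_inv, hza] }
  have hB : ∀ r, r ∈ B ↔ r ∈ R ∧ (s * r * s⁻¹ = r ∨ s * r * s⁻¹ = z * r) := fun _ => Iff.rfl
  have hinv : ∀ g ∈ E, ∀ b ∈ B, g * b * g⁻¹ ∈ B := by
    rintro g hg b ⟨hb, hb'⟩
    have hgz := E_z hg
    have hgb := R_norm hgz hb
    refine ⟨hgb, ?_⟩
    -- `s g = ⁅s, g⁆ g s`
    have hc := hs.2 g hg
    have e1 : s * (g * b * g⁻¹) * s⁻¹ = ⁅s, g⁆ * (g * (s * b * s⁻¹) * g⁻¹) * ⁅s, g⁆⁻¹ := by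
      simp only [commutatorElement_def]; group
    have hcz := Rz hc
    rcases hb' with h | h
    · rw [e1, h]
      have := (R_le_Ker hc).2 _ hgb
      exact this
    · have e2 : g * (z * b) * g⁻¹ = z * (g * b * g⁻¹) := by rw [← mul_assoc, hgz]; group
      rw [e1, h, e2]
      have e3 : ⁅s, g⁆ * (z * (g * b * g⁻¹)) * ⁅s, g⁆⁻¹ = z * (⁅s, g⁆ * (g * b * g⁻¹) * ⁅s, g⁆⁻¹) := by
        rw [← mul_assoc, hcz]; group
      rw [e3]
      rcases (R_le_Ker hc).2 _ hgb with h' | h'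
      · rw [h']; exact Or.inr rfl
      · rw [h', ← mul_assoc, zz, one_mul]; exact Or.inl rfl
  rcases frame.irr B (fun b hb => hb.1) hinv with h2 | h2
  · exfalso
    rcases h2 t ⟨ht, h⟩ with h3 | h3
    · exact h1 h3
    · exact hz h3
  · rw [← Ker_eq]
    refine ⟨hsz, fun r hr => ?_⟩
    rw [← h2] at hr
    exact hr.2

/-- A `p`-subgroup `P` of `X` fixing the coset `g O`, `O` a normal `p'`-subgroup, fixes an element of it. -/
theorem exists_fixed_lift {X : Type*} [Group X] {p : ℕ} (hp : p.Prime) (O : Subgroup X) [O.Normal] (hO : (Nat.card ↥O).Coprime p) {P : Subgroup X}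
    (hP : IsPGroup p ↥P) {y : X ⧸ O} (hy : ∀ x ∈ P, (x : X ⧸ O) * y * (x : X ⧸ O)⁻¹ = y) :
    ∃ g : X, (g : X ⧸ O) = y ∧ ∀ x ∈ P, x * g = g * x := by
  have : Fact p.Prime := ⟨hp⟩
  let Ω : Set X := {g | (g : X ⧸ O) = y}
  let act : MulAction ↥P ↥Ω :=
    { smul := fun x g => ⟨x * g * (x : X)⁻¹, by
        show (((x : X) * (g : X) * (x : X)⁻¹ : X) : X ⧸ O) = y
        rw [QuotientGroup.mk_mul, QuotientGroup.mk_mul, QuotientGroup.mk_inv, show ((g : X) : X ⧸ O) = y from g.2]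
        exact hy x x.2⟩
      one_smul := fun g => Subtype.ext (by
        show ((1 : ↥P) : X) * (g : X) * ((1 : ↥P) : X)⁻¹ = g
        simp)
      mul_smul := fun a b g => Subtype.ext (by
        show ((a * b : ↥P) : X) * (g : X) * ((a * b : ↥P) : X)⁻¹ = (a : X) * ((b : X) * (g : X) * (b : X)⁻¹) * (a : X)⁻¹
        simp only [Subgroup.coe_mul]
        group) }
  obtain ⟨g0, hg0⟩ := QuotientGroup.mk_surjective y
  have hcard : Nat.card ↥Ω = Nat.card ↥O := by
    refine Nat.card_congr ⟨fun g => ⟨g0⁻¹ * (g : X), ?_⟩, fun o => ⟨g0 * (o : X), ?_⟩, ?_, ?_⟩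
    · rw [← QuotientGroup.eq, hg0]
      exact g.2.symm
    · show ((g0 * (o : X) : X) : X ⧸ O) = y
      rw [QuotientGroup.mk_mul, (QuotientGroup.eq_one_iff (o : X)).2 o.2, mul_one, hg0]
    · intro g
      apply Subtype.ext
      show g0 * (g0⁻¹ * (g : X)) = g
      group
    · intro o
      apply Subtype.ext
      show g0⁻¹ * (g0 * (o : X)) = o
      group
  have hnd : ¬ p ∣ Nat.card ↥Ω := by
    rw [hcard]
    exact (Nat.Prime.coprime_iff_not_dvd hp).1 hO.symm
  obtain ⟨g, hg⟩ := hP.nonempty_fixed_point_of_prime_not_dvd_card ↥Ω hnd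
  refine ⟨g, g.2, fun x hx => ?_⟩
  have h1 : (⟨x, hx⟩ : ↥P) • g = g := hg ⟨x, hx⟩
  have h2 : x * (g : X) * x⁻¹ = g := congrArg Subtype.val h1
  exact mul_inv_eq_iff_eq_mul.1 h2

/-- an element commuting with `f` modulo `R` -/
theorem exists_comm {f g : Spor.Fi24} (hf : f ^ 3 = 1) (hfz : f * z = z * f) (hgz : g * z = z * g)
    (h : ⁅g, f⁆ ∈ R) : ∃ r ∈ R, (g * r) * f = f * (g * r) := by
  let X : Subgroup Spor.Fi24 := centralizer ({z} : Set Spor.Fi24)
  have hRX : R ≤ X := fun r hr => mem_centralizer_singleton_iff.2 (Rz hr)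
  have hn : (R.subgroupOf X).Normal := ⟨fun r hr x => mem_subgroupOf.2
    (R_norm (mem_centralizer_singleton_iff.1 x.2) (mem_subgroupOf.1 hr))⟩
  let f' : ↥X := ⟨f, mem_centralizer_singleton_iff.2 hfz⟩
  let g' : ↥X := ⟨g, mem_centralizer_singleton_iff.2 hgz⟩
  have hO : (Nat.card ↥(R.subgroupOf X)).Coprime 3 := by
    rw [Nat.card_congr (subgroupOfEquivOfLe hRX).toEquiv, frame.cardR]
    norm_num
  have hf' : f' ^ 3 = 1 := Subtype.ext hf
  have hP : IsPGroup 3 ↥(zpowers f') := by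
    intro a
    refine ⟨1, ?_⟩
    apply Subtype.ext
    obtain ⟨k, hk⟩ := mem_zpowers_iff.1 a.2
    rw [pow_one, coe_pow, ← hk, ← zpow_natCast, ← zpow_mul, mul_comm, zpow_mul, zpow_natCast, hf', one_zpow]
    rfl
  have hc : Commute (f' : ↥X ⧸ R.subgroupOf X) (g' : ↥X ⧸ R.subgroupOf X) := by
    have h1 : ((⁅g', f'⁆ : ↥X) : ↥X ⧸ R.subgroupOf X) = 1 := (QuotientGroup.eq_one_iff _).2 (mem_subgroupOf.2 h)
    have h2 : ⁅(g' : ↥X ⧸ R.subgroupOf X), (f' : ↥X ⧸ R.subgroupOf X)⁆ = 1 := h1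
    exact (commutatorElement_eq_one_iff_mul_comm.1 h2).symm
  obtain ⟨c, hc1, hc2⟩ := exists_fixed_lift Nat.prime_three (R.subgroupOf X) hO hP
    (y := (g' : ↥X ⧸ R.subgroupOf X)) (by
      intro x hx
      obtain ⟨k, rfl⟩ := mem_zpowers_iff.1 hx
      rw [QuotientGroup.mk_zpow, (hc.zpow_left k).eq, mul_inv_cancel_right])
  have h3 : g'⁻¹ * c ∈ R.subgroupOf X := QuotientGroup.eq.1 hc1.symm
  refine ⟨g⁻¹ * c, mem_subgroupOf.1 h3, ?_⟩
  rw [mul_inv_cancel_left]
  exact (congrArg Subtype.val (hc2 f' (mem_zpowers f'))).symm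

theorem comm_Zc {g u : Spor.Fi24} (hg : g ∈ E) (hu : u ∈ Zc) : ⁅g, u⁆ ∈ R := by
  rw [← commutatorElement_inv]
  exact R.inv_mem (hu.2 g hg)

/-- equality up to `z` -/
def Eqz (a b : Spor.Fi24) : Prop := a = b ∨ a = z * b

theorem Eqz.symm {a b : Spor.Fi24} (h : Eqz a b) : Eqz b a := by
  rcases h with h | h
  · exact Or.inl h.symm
  · right; rw [h, ← mul_assoc, zz, one_mul]

theorem Eqz.trans {a b c : Spor.Fi24} (h : Eqz a b) (h' : Eqz b c) : Eqz a c := by
  rcases h with rfl | rfl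
  · exact h'
  · rcases h' with rfl | rfl
    · exact Or.inr rfl
    · left; rw [← mul_assoc, zz, one_mul]

theorem Eqz.conj {a b g : Spor.Fi24} (hg : g * z = z * g) (h : Eqz a b) : Eqz (g * a * g⁻¹) (g * b * g⁻¹) := by
  rcases h with rfl | rfl
  · exact Or.inl rfl
  · right
    rw [← mul_assoc, hg]
    group

theorem Eqz.mul {a b c d : Spor.Fi24} (hb : b * z = z * b) (h : Eqz a b) (h' : Eqz c d) : Eqz (a * c) (b * d) := by
  rcases h with rfl | rfl <;> rcases h' with rfl | rfl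
  · exact Or.inl rfl
  · right; rw [← mul_assoc, hb, mul_assoc]
  · right; rw [mul_assoc]
  · left
    calc z * b * (z * d) = z * (b * z) * d := by group
      _ = (z * z) * (b * d) := by rw [hb]; group
      _ = b * d := by rw [zz, one_mul]

theorem Eqz.mem {a b : Spor.Fi24} (h : Eqz a b) (ha : a ∈ R) : b ∈ R := by
  rcases h with rfl | rfl
  · exact ha
  · have := R.mul_mem frame.zR ha
    rwa [← mul_assoc, zz, one_mul] at this

/-- an element of `Zc` outside `R` moves the noncentral elements of `R` modulo `z` -/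
theorem not_eqz {s t : Spor.Fi24} (hs : s ∈ Zc) (hsR : s ∉ R) (ht : t ∈ R) (h1 : t ≠ 1) (hz : t ≠ z) :
    ¬ Eqz (s * t * s⁻¹) t := fun h => hsR (mem_R_of_fix hs ht h1 hz h)

theorem pair_mem {a b c d : Spor.Fi24} (h : IsTet L z a b c d) : a * b ∈ R :=
  RQ.pair_mem_R FixZ.tran (Cfsg.Agent.R08.TetThree.Pairs.eq_1 L z ▸ ⟨a, b, ⟨c, d, h⟩, rfl⟩)

theorem pair_ne {a b c d : Spor.Fi24} (h : IsTet L z a b c d) : a * b ≠ 1 ∧ a * b ≠ z := by
  have hbb : b * b = 1 := Cfsg.Agent.R08.FiTwentyFour.sq h.hb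
  have hcc : c * c = 1 := Cfsg.Agent.R08.FiTwentyFour.sq h.hc
  have hdd : d * d = 1 := Cfsg.Agent.R08.FiTwentyFour.sq h.hd
  constructor
  · intro h1
    apply h.nab
    calc a = a * (b * b) := by rw [hbb, mul_one]
      _ = (a * b) * b := by rw [mul_assoc]
      _ = b := by rw [h1, one_mul]
  · intro h1
    apply h.ncd
    have h2 : a * b * (c * d) = a * b := by rw [← mul_assoc, h.prod, h1]
    have h3 : c * d = 1 := mul_left_cancel (h2.trans (mul_one _).symm)
    calc c = c * (d * d) := by rw [hdd, mul_one]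
      _ = (c * d) * d := by rw [mul_assoc]
      _ = d := by rw [h3, one_mul]

/-- complementary pairs are equal up to `z` -/
theorem eqz_compl {a b c d : Spor.Fi24} (h : IsTet L z a b c d) : Eqz (c * d) (a * b) := by
  right
  have haa : a * a = 1 := Cfsg.Agent.R08.FiTwentyFour.sq h.ha
  have hbb : b * b = 1 := Cfsg.Agent.R08.FiTwentyFour.sq h.hb
  have h1 : (a * b) * (a * b) = 1 := by
    calc (a * b) * (a * b) = a * (b * a) * b := by simp only [mul_assoc]
      _ = a * (a * b) * b := by rw [h.ab.eq]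
      _ = (a * a) * (b * b) := by simp only [mul_assoc]
      _ = 1 := by rw [haa, hbb, one_mul]
  have h2 : (z : Spor.Fi24) * (a * b) = (a * b) * z := (Rz (pair_mem h)).symm
  rw [h2]
  calc c * d = (a * b) * (a * b) * (c * d) := by rw [h1, one_mul]
    _ = (a * b) * (a * b * c * d) := by simp only [mul_assoc]
    _ = (a * b) * z := by rw [h.prod]

/-- the relations between the six pairs of a tetrad -/
theorem step {s a b c d : Spor.Fi24} (hs : s ∈ Zc) (hsR : s ∉ R) (hT : IsTet L z a b c d) :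
    Eqz (s * (a * b) * s⁻¹) (a * c) ∨ Eqz (s * (a * b) * s⁻¹) (a * d) := by
  have hsz := E_z hs.1
  have mab := not_eqz hs hsR (pair_mem hT) (pair_ne hT).1 (pair_ne hT).2
  have kcd : Eqz (c * d) (a * b) := eqz_compl hT
  have kbd : Eqz (b * d) (a * c) := eqz_compl hT.sw23
  have kbc : Eqz (b * c) (a * d) := eqz_compl hT.sw34.sw23
  have hcm : ∀ u v : Spor.Fi24, s * (u * v) * s⁻¹ = (s * u * s⁻¹) * (s * v * s⁻¹) := fun u v => by group
  have hfix := small s hs
  have hDz : ∀ {x y u v : Spor.Fi24}, IsTet L z x y u v → x ∈ Dz := by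
    intro x y u v h
    refine ⟨h.ha, ?_⟩
    have h1 : Commute x (x * y * u * v) :=
      (((Commute.refl x).mul_right h.ab).mul_right h.ac).mul_right h.ad
    rw [h.prod] at h1
    exact h1.eq
  have mem4 : ∀ {x y u v : Spor.Fi24}, IsTet L z x y u v → s * x * s⁻¹ = x ∨ s * x * s⁻¹ = y ∨ s * x * s⁻¹ = u ∨
      s * x * s⁻¹ = v := by
    intro x y u v h
    rcases hfix x (hDz h) with h1 | h1
    · exact Or.inl h1
    · exact Or.inr (h.mate_cases Tet.tr h1)
  have ha4 := mem4 hT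
  have hb4 := mem4 hT.sw12
  have hne : s * a * s⁻¹ ≠ s * b * s⁻¹ := fun h1 => hT.nab (mul_left_cancel (mul_right_cancel h1))
  rw [hcm]
  rw [hcm] at mab
  have r1 : Eqz (b * a) (a * b) := Or.inl hT.ab.eq.symm
  have r2 : Eqz (d * c) (a * b) := by rw [← hT.cd.eq]; exact kcd
  have r3 : Eqz (c * a) (a * c) := Or.inl hT.ac.eq.symm
  have r4 : Eqz (d * b) (a * c) := by rw [← hT.bd.eq]; exact kbd
  have r5 : Eqz (d * a) (a * d) := Or.inl hT.ad.eq.symm
  have r6 : Eqz (c * b) (a * d) := by rw [← hT.bc.eq]; exact kbc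
  have r0 : ∀ x : Spor.Fi24, Eqz x x := fun x => Or.inl rfl
  rcases ha4 with h1 | h1 | h1 | h1 <;> rcases hb4 with h2 | h2 | h2 | h2 <;> rw [h1, h2] at hne mab <;>
    rw [h1, h2]
  · exact absurd (r0 _) mab
  · exact absurd rfl hne
  · exact Or.inl (r0 _)
  · exact Or.inr (r0 _)
  · exact absurd rfl hne
  · exact absurd r1 mab
  · exact Or.inr kbc
  · exact Or.inl kbd
  · exact Or.inr r6
  · exact Or.inl r3
  · exact absurd rfl hne
  · exact absurd kcd mab
  · exact Or.inl r4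
  · exact Or.inr r5
  · exact absurd r2 mab
  · exact absurd rfl hne

/-- the products of the pairs -/
theorem prods {a b c d : Spor.Fi24} (hT : IsTet L z a b c d) : Eqz (a * b * (a * c)) (a * d) := by
  have haa : a * a = 1 := Cfsg.Agent.R08.FiTwentyFour.sq hT.ha
  have e1 : a * b * (a * c) = b * c := by
    calc a * b * (a * c) = a * (b * a) * c := by simp only [mul_assoc]
      _ = a * (a * b) * c := by rw [hT.ab.eq]
      _ = (a * a) * (b * c) := by simp only [mul_assoc]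
      _ = b * c := by rw [haa, one_mul]
  rw [e1]; exact eqz_compl hT.sw34.sw23

/-- the action on the pairs is a 3-cycle -/
theorem three_cycle {s a b c d : Spor.Fi24} (hs : s ∈ Zc) (hsR : s ∉ R) (hT : IsTet L z a b c d)
    (h : Eqz (s * (a * b) * s⁻¹) (a * c)) :
    Eqz (s * (a * c) * s⁻¹) (a * d) ∧ Eqz (s * (a * d) * s⁻¹) (a * b) := by
  have hsz := E_z hs.1
  have hcm : ∀ u v : Spor.Fi24, s * (u * v) * s⁻¹ = (s * u * s⁻¹) * (s * v * s⁻¹) := fun u v => by group
  have zac := Rz (pair_mem hT.sw23)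
  have mad := not_eqz hs hsR (pair_mem hT.sw34.sw23) (pair_ne hT.sw34.sw23).1 (pair_ne hT.sw34.sw23).2
  have h1 : Eqz (s * (a * c) * s⁻¹) (a * d) := by
    rcases step hs hsR hT.sw23 with h4 | h4
    · exfalso
      -- `a c → a b`: then `a d` is fixed
      have h5 := h.mul zac h4
      rw [← hcm] at h5
      exact mad (((prods hT).symm.conj hsz).trans (h5.trans (prods hT.sw23)))
    · exact h4
  refine ⟨h1, ?_⟩
  have h5 := h.mul zac h1
  rw [← hcm] at h5
  exact ((prods hT).symm.conj hsz).trans (h5.trans (prods hT.sw23.sw34))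

/-- **an odd permutation of a tetrad inverts `Zc / R`** -/
theorem exists_inv : ∃ g ∈ commutator Spor.Fi24, g * z = z * g ∧ ∀ s ∈ Zc, g * s * g⁻¹ * s ∈ R := by
  have hT := Order.hT
  generalize D 0 0 = a at hT
  generalize D 0 1 = b at hT
  generalize D 0 2 = c at hT
  generalize D 0 3 = d at hT
  obtain ⟨g, hg, ga, gb, gc, gd⟩ := Trans.trans4 hT hT.sw12
  have hgz : g * z * g⁻¹ = z := by
    rw [← hT.prod, conj_mul, conj_mul, conj_mul,
      ga, gb, gc, gd, hT.ab.eq]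
  have hgz' : g * z = z * g := mul_inv_eq_iff_eq_mul.1 hgz
  refine ⟨g, hg, hgz', fun s hs => ?_⟩
  by_cases hsR : s ∈ R
  · exact R.mul_mem (R_norm hgz' hsR) hsR
  have hsz := E_z hs.1
  -- the action of `g`
  have gab : Eqz (g * (a * b) * g⁻¹) (a * b) := by
    left; rw [conj_mul, ga, gb, hT.ab.eq]
  have gac : Eqz (g * (a * c) * g⁻¹) (a * d) := by
    rw [conj_mul, ga, gc]; exact eqz_compl hT.sw34.sw23
  have gad : Eqz (g * (a * d) * g⁻¹) (a * c) := by
    rw [conj_mul, ga, gd]; exact eqz_compl hT.sw23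
  have hgi : g⁻¹ * z = z * g⁻¹ := z_comm_inv hgz'
  have giac : Eqz (g⁻¹ * (a * c) * g⁻¹⁻¹) (a * d) := by
    have h1 := (gad.symm).conj hgi
    have e1 : g⁻¹ * (g * (a * d) * g⁻¹) * g⁻¹⁻¹ = a * d := by group
    rwa [e1] at h1
  have giad : Eqz (g⁻¹ * (a * d) * g⁻¹⁻¹) (a * c) := by
    have h1 := (gac.symm).conj hgi
    have e1 : g⁻¹ * (g * (a * c) * g⁻¹) * g⁻¹⁻¹ = a * c := by group
    rwa [e1] at h1
  have fin : Eqz (g * s * g⁻¹ * s * (a * b) * (g * s * g⁻¹ * s)⁻¹) (a * b) := by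
    have e1 : g * s * g⁻¹ * s * (a * b) * (g * s * g⁻¹ * s)⁻¹ =
        g * (s * (g⁻¹ * (s * (a * b) * s⁻¹) * g⁻¹⁻¹) * s⁻¹) * g⁻¹ := by group
    rw [e1]
    rcases step hs hsR hT with h1 | h1
    · obtain ⟨-, h2⟩ := three_cycle hs hsR hT h1
      exact (((((h1.conj hgi).trans giac).conj hsz).trans h2).conj hgz').trans gab
    · obtain ⟨-, h2⟩ := three_cycle hs hsR hT.sw34 h1
      exact (((((h1.conj hgi).trans giad).conj hsz).trans h2).conj hgz').trans gab
  exact mem_R_of_fix (Zc.mul_mem (Zc_norm hgz' hs) hs) (pair_mem hT) (pair_ne hT).1 (pair_ne hT).2 fin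


end Cfsg.Agent.H827.ZLoc
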